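/-
Transitivity on dodecadPairs, suborbit certificate and maximality of the stabiliser.
-/
import Cfsg.Agent.Lib.GolayStructure.DataDodecadPair
import Cfsg.Agent.Lib.GolayStructure.Orbits

set_option autoImplicit false

namespace CfsgLib.GolayStructure

open Cfsg CfsgLib.Golay
open scoped Pointwise

/-- The pairs of complementary dodecads, indexed by the member holding the extra point. -/
def dodecadPairs : Set (Finset (Finset GolayPt)) :=
  (fun d => ({d, dᶜ} : Finset (Finset GolayPt))) '' {d | d ∈ dodecads ∧ none ∈ d}

theorem ncard_dodecadPairs : dodecadPairs.ncard = 1288 := by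
  rw [dodecadPairs, Set.InjOn.ncard_image]
  · have h := ncard_supports_sep (fun s => s.card = 12 ∧ none ∈ s)
      (fun n => popc n == 12 && n.testBit 23) (fun n _ => by simp [card_unmask, idx])
    have e : {d | d ∈ dodecads ∧ none ∈ d} =
        {s | s ∈ supports (golayCode : Set (GolayPt → ZMod 2)) ∧ s.card = 12 ∧ none ∈ s} := by
      ext; simp [dodecads, wordsOfWeight, and_assoc]
    rw [e, h]
    decide +kernel
  · rintro a ⟨-, ha⟩ b ⟨-, hb⟩ h
    have h : ({a, aᶜ} : Finset (Finset GolayPt)) = {b, bᶜ} := h
    have hmem : a ∈ ({b, bᶜ} : Finset (Finset GolayPt)) := by rw [← h]; simp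
    simp only [Finset.mem_insert, Finset.mem_singleton] at hmem
    rcases hmem with hm | hm
    · exact hm
    · rw [hm, Finset.mem_compl] at ha; exact absurd hb ha

theorem compl_mem_dodecads {d : Finset GolayPt} (hd : d ∈ dodecads) : dᶜ ∈ dodecads := by
  refine ⟨?_, ?_⟩
  · rw [show dᶜ = symmDiff d Finset.univ by rw [← Finset.top_eq_univ, symmDiff_top, hnot_eq_compl]]
    exact symmDiff_mem_supports hd.1
      (mem_supports_iff.2 ⟨fullMask, inCode_iff.1 (by decide +kernel), unmask_fullMask⟩)
  · rw [Finset.card_compl, hd.2, card_golayPt]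

theorem pair_mem_dodecadPairs {d : Finset GolayPt} (hd : d ∈ dodecads) :
    ({d, dᶜ} : Finset (Finset GolayPt)) ∈ dodecadPairs := by
  by_cases h : none ∈ d
  · exact ⟨d, ⟨hd, h⟩, rfl⟩
  · exact ⟨dᶜ, ⟨compl_mem_dodecads hd, Finset.mem_compl.2 h⟩, by
      simp only [compl_compl, Finset.pair_comm]⟩

theorem smul_mem_dodecadPairs (g : M24) {P : Finset (Finset GolayPt)} (hP : P ∈ dodecadPairs) :
    g • P ∈ dodecadPairs := by
  obtain ⟨d, ⟨hd, -⟩, rfl⟩ := hP
  simp only [Finset.smul_finset_insert, Finset.smul_finset_singleton, smul_compl]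
  exact pair_mem_dodecadPairs (smul_mem_dodecads g hd)

theorem dodecadPair_pairBit :
    ((List.range 1288).all fun r => (fieldAt 24 dodecadPairTable r).testBit 23) = true := by
  decide +kernel

theorem dodecadPair_mapsTo (r : ℕ) (hr : r < 1288) :
    (pairKind).dec (fieldAt 24 dodecadPairTable r) ∈ dodecadPairs := by
  have h := List.all_eq_true.1 dodecadPair_canon r (List.mem_range.2 hr)
  simp only [Bool.and_eq_true, beq_iff_eq] at h
  exact ⟨unmask (fieldAt 24 dodecadPairTable r),
    ⟨mem_dodecads_iff.2 ⟨_, inCode_iff.1 h.1.1, h.1.2, rfl⟩, mem_unmask.2 h.2⟩, rfl⟩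

/-- All of them. -/
def dodecadPairAll : Cert pairKind dodecadPairs 1288 where
  gens := dodecadPairAllGens
  R := fieldAt 24 dodecadPairTable
  parts := dodecadPairAllParts
  gens_valid := dodecadPair_allGens
  parts_valid := dodecadPair_allParts
  covers := dodecadPair_allCovers
  injOn := pairKind_injOn dodecadPair_inc dodecadPair_pairBit
  mapsTo := dodecadPair_mapsTo
  ncard_eq := ncard_dodecadPairs

/-- The suborbits of the base one. -/
def dodecadPairSub : Cert pairKind dodecadPairs 1288 where
  gens := dodecadPairStabGens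
  R := fieldAt 24 dodecadPairTable
  parts := dodecadPairStabParts
  gens_valid := dodecadPair_stabGens
  parts_valid := dodecadPair_stabParts
  covers := dodecadPair_stabCovers
  injOn := pairKind_injOn dodecadPair_inc dodecadPair_pairBit
  mapsTo := dodecadPair_mapsTo
  ncard_eq := ncard_dodecadPairs

/-- The base one. -/
def baseDodecadPair : Finset (Finset GolayPt) := (pairKind).dec (fieldAt 24 dodecadPairTable dodecadPairRoot)

theorem orbit_baseDodecadPair : MulAction.orbit M24 baseDodecadPair = dodecadPairs := by
  have h := dodecadPairAll.orbit_all (by norm_num) (dodecadPairAllParts.head (by simp [dodecadPairAllParts])) rfl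
    fun g _ h => smul_mem_dodecadPairs g h
  exact h

theorem exists_smul_baseDodecadPair {x : Finset (Finset GolayPt)} (hx : x ∈ dodecadPairs) : ∃ g : M24, g • baseDodecadPair = x := by
  rw [← orbit_baseDodecadPair] at hx
  exact hx

theorem dodecadPairSub_gens : ∀ t ∈ dodecadPairSub.gens, m24Of t ∈ MulAction.stabilizer M24 baseDodecadPair :=
  gens_mem_stabilizer (K := pairKind) dodecadPair_stabGens dodecadPair_stabFix

theorem isCoatom_dodecadPair {x : Finset (Finset GolayPt)} (hx : x ∈ dodecadPairs) : IsCoatom (MulAction.stabilizer M24 x) := by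
  refine isCoatom_of_base orbit_baseDodecadPair ?_ hx
  have h := dodecadPairSub.isCoatom_base (by norm_num) (dodecadPairStabParts.head (by simp [dodecadPairStabParts]))
    dodecadPairStabParts.tail rfl rfl dodecadPairSub_gens orbit_baseDodecadPair
    (by decide +kernel)
  exact h

end CfsgLib.GolayStructure
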