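/-
Transitivity on triads, suborbit certificate and maximality of the stabiliser.
-/
import Cfsg.Agent.Lib.GolayStructure.DataTriad
import Cfsg.Agent.Lib.GolayStructure.Orbits

set_option autoImplicit false

namespace CfsgLib.GolayStructure

open Cfsg CfsgLib.Golay
open scoped Pointwise

/-- The sets of three points. -/
def triads : Set (Finset GolayPt) := {s | s.card = 3}

theorem ncard_triads : triads.ncard = 2024 := by
  rw [triads, show {s : Finset GolayPt | s.card = 3} = ↑((Finset.univ : Finset GolayPt).powersetCard 3) by
    ext; simp, Set.ncard_coe_finset, Finset.card_powersetCard, card_univ_golayPt]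
  norm_num [Nat.choose_eq_descFactorial_div_factorial, Nat.descFactorial, Nat.factorial]

theorem smul_mem_triads (g : M24) {s : Finset GolayPt} (hs : s ∈ triads) : g • s ∈ triads :=
  (card_smul g s).trans hs

theorem triad_mapsTo (r : ℕ) (hr : r < 2024) :
    (setKind).dec (fieldAt 24 triadTable r) ∈ triads := by
  show (unmask (fieldAt 24 triadTable r)).card = 3
  rw [card_unmask]
  exact beq_iff_eq.1 (List.all_eq_true.1 triad_canon r (List.mem_range.2 hr))

/-- All of them. -/
def triadAll : Cert setKind triads 2024 where
  gens := triadAllGens
  R := fieldAt 24 triadTable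
  parts := triadAllParts
  gens_valid := triad_allGens
  parts_valid := triad_allParts
  covers := triad_allCovers
  injOn := setKind_injOn triad_inc
  mapsTo := triad_mapsTo
  ncard_eq := ncard_triads

/-- The suborbits of the base one. -/
def triadSub : Cert setKind triads 2024 where
  gens := triadStabGens
  R := fieldAt 24 triadTable
  parts := triadStabParts
  gens_valid := triad_stabGens
  parts_valid := triad_stabParts
  covers := triad_stabCovers
  injOn := setKind_injOn triad_inc
  mapsTo := triad_mapsTo
  ncard_eq := ncard_triads

/-- The base one. -/
def baseTriad : Finset GolayPt := (setKind).dec (fieldAt 24 triadTable triadRoot)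

theorem orbit_baseTriad : MulAction.orbit M24 baseTriad = triads := by
  have h := triadAll.orbit_all (by norm_num) (triadAllParts.head (by simp [triadAllParts])) rfl
    fun g _ h => smul_mem_triads g h
  exact h

theorem exists_smul_baseTriad {x : Finset GolayPt} (hx : x ∈ triads) : ∃ g : M24, g • baseTriad = x := by
  rw [← orbit_baseTriad] at hx
  exact hx

theorem triadSub_gens : ∀ t ∈ triadSub.gens, m24Of t ∈ MulAction.stabilizer M24 baseTriad :=
  gens_mem_stabilizer (K := setKind) triad_stabGens triad_stabFix

theorem isCoatom_triad {x : Finset GolayPt} (hx : x ∈ triads) : IsCoatom (MulAction.stabilizer M24 x) := by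
  refine isCoatom_of_base orbit_baseTriad ?_ hx
  have h := triadSub.isCoatom_base (by norm_num) (triadStabParts.head (by simp [triadStabParts]))
    triadStabParts.tail rfl rfl triadSub_gens orbit_baseTriad
    (by decide +kernel)
  exact h

end CfsgLib.GolayStructure
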