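/-
Transitivity on trios, suborbit certificate and maximality of the stabiliser.
-/
import Cfsg.Agent.Lib.GolayStructure.DataTrio
import Cfsg.Agent.Lib.GolayStructure.Orbits

set_option autoImplicit false

namespace CfsgLib.GolayStructure

open Cfsg CfsgLib.Golay
open scoped Pointwise


theorem trio_mapsTo (r : ℕ) (hr : r < 3795) :
    (trioKind).dec (fieldAt 48 trioTable r) ∈ trios := by
  have h := List.all_eq_true.1 trio_canon r (List.mem_range.2 hr)
  simp only [trioCanon, Bool.and_eq_true] at h
  exact trioDec_mem h.1.1

/-- All of them. -/
def trioAll : Cert trioKind trios 3795 where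
  gens := trioAllGens
  R := fieldAt 48 trioTable
  parts := trioAllParts
  gens_valid := trio_allGens
  parts_valid := trio_allParts
  covers := trio_allCovers
  injOn := trioKind_injOn trio_inc trio_canon
  mapsTo := trio_mapsTo
  ncard_eq := ncard_trios

/-- The suborbits of the base one. -/
def trioSub : Cert trioKind trios 3795 where
  gens := trioStabGens
  R := fieldAt 48 trioTable
  parts := trioStabParts
  gens_valid := trio_stabGens
  parts_valid := trio_stabParts
  covers := trio_stabCovers
  injOn := trioKind_injOn trio_inc trio_canon
  mapsTo := trio_mapsTo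
  ncard_eq := ncard_trios

/-- The base one. -/
def baseTrio : Finset (Finset GolayPt) := (trioKind).dec (fieldAt 48 trioTable trioRoot)

theorem orbit_baseTrio : MulAction.orbit M24 baseTrio = trios := by
  have h := trioAll.orbit_all (by norm_num) (trioAllParts.head (by simp [trioAllParts])) rfl
    fun g _ h => smul_mem_trios g h
  exact h

theorem exists_smul_baseTrio {x : Finset (Finset GolayPt)} (hx : x ∈ trios) : ∃ g : M24, g • baseTrio = x := by
  rw [← orbit_baseTrio] at hx
  exact hx

theorem trioSub_gens : ∀ t ∈ trioSub.gens, m24Of t ∈ MulAction.stabilizer M24 baseTrio :=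
  gens_mem_stabilizer (K := trioKind) trio_stabGens trio_stabFix

theorem isCoatom_trio {x : Finset (Finset GolayPt)} (hx : x ∈ trios) : IsCoatom (MulAction.stabilizer M24 x) := by
  refine isCoatom_of_base orbit_baseTrio ?_ hx
  have h := trioSub.isCoatom_base (by norm_num) (trioStabParts.head (by simp [trioStabParts]))
    trioStabParts.tail rfl rfl trioSub_gens orbit_baseTrio
    (by decide +kernel)
  exact h

end CfsgLib.GolayStructure
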