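/-
The suborbits of a trio stabiliser are separated by the intersection sum.
-/
import Cfsg.Agent.Lib.GolayStructure.TrioOrbits
import Cfsg.Agent.Lib.GolayStructure.PairInv
import Cfsg.Agent.Lib.GolayStructure.Suborbits

set_option autoImplicit false

namespace CfsgLib.GolayStructure

open Cfsg CfsgLib.Golay
open scoped Pointwise

/-- The octads of the suborbit roots, in the order of the parts. -/
def trioRootLists : List (List ℕ) :=
  trioStabParts.map fun P => trioList (fieldAt 48 trioTable P.root)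

theorem trioRootLists_ok : trioRootLists.all maskList = true := by
  decide +kernel

/-- The invariant values on the roots differ. -/
theorem trioRootInv_sep : ((List.range 5).all fun i => (List.range 5).all fun j => i == j ||
    listInv (trioRootLists.getD 0 []) (trioRootLists.getD i []) !=
      listInv (trioRootLists.getD 0 []) (trioRootLists.getD j [])) = true := by
  decide +kernel

theorem trioRoot_dec (i : ℕ) (hi : i < 5) :
    maskList (trioRootLists.getD i []) = true ∧
    trioKind.dec (trioSub.R (trioStabParts.getD i ⟨0, 0, 0⟩).root) =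
      ((trioRootLists.getD i []).map unmask).toFinset := by
  have hlen : trioStabParts.length = 5 := rfl
  have he : trioRootLists.getD i [] =
      trioList (fieldAt 48 trioTable (trioStabParts.getD i ⟨0, 0, 0⟩).root) := by
    rw [List.getD_eq_getElem _ _ (by simpa [trioRootLists] using hlen ▸ hi),
      List.getD_eq_getElem _ _ (hlen ▸ hi)]
    simp [trioRootLists]
  refine ⟨List.all_eq_true.1 trioRootLists_ok _ ?_, ?_⟩
  · rw [List.getD_eq_getElem _ _ (by simpa [trioRootLists] using hlen ▸ hi)]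
    exact List.getElem_mem _
  · rw [he]
    exact trioDec_eq_list _

theorem trioInv_root (i : ℕ) (hi : i < 5) :
    pairInv baseTrio (trioKind.dec (trioSub.R (trioStabParts.getD i ⟨0, 0, 0⟩).root)) =
      listInv (trioRootLists.getD 0 []) (trioRootLists.getD i []) := by
  have h0 := trioRoot_dec 0 (by norm_num)
  have hi' := trioRoot_dec i hi
  rw [hi'.2]
  have hb : baseTrio = ((trioRootLists.getD 0 []).map unmask).toFinset := h0.2
  rw [hb, pairInv_masks h0.1 hi'.1]

theorem trioSub_sep : ∀ P ∈ trioSub.parts, ∀ Q ∈ trioSub.parts,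
    pairInv baseTrio (trioKind.dec (trioSub.R P.root)) =
      pairInv baseTrio (trioKind.dec (trioSub.R Q.root)) → P = Q := by
  intro P hP Q hQ h
  obtain ⟨i, hi, rfl⟩ := List.getElem_of_mem hP
  obtain ⟨j, hj, rfl⟩ := List.getElem_of_mem hQ
  have ei : trioSub.parts[i] = trioStabParts.getD i ⟨0, 0, 0⟩ :=
    (List.getD_eq_getElem _ _ hi).symm
  have ej : trioSub.parts[j] = trioStabParts.getD j ⟨0, 0, 0⟩ :=
    (List.getD_eq_getElem _ _ hj).symm
  have hlen : trioSub.parts.length = 5 := rfl
  rw [ei, ej, trioInv_root i (hlen ▸ hi), trioInv_root j (hlen ▸ hj)] at h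
  have hs := List.all_eq_true.1 (List.all_eq_true.1 trioRootInv_sep i
    (List.mem_range.2 (hlen ▸ hi))) j (List.mem_range.2 (hlen ▸ hj))
  simp only [Bool.or_eq_true, beq_iff_eq, bne_iff_ne, ne_eq] at hs
  rcases hs with rfl | hs
  · rfl
  · exact absurd h hs

theorem trio_suborbits {S : Finset (Finset GolayPt)} (hS : S ∈ trios) :
    ∃ X₁ ∈ trios, ∃ X₂ ∈ trios, ∃ X₃ ∈ trios, ∃ X₄ ∈ trios,
      (MulAction.orbit (MulAction.stabilizer M24 S) X₁).ncard = 42 ∧
      (MulAction.orbit (MulAction.stabilizer M24 S) X₂).ncard = 56 ∧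
      (MulAction.orbit (MulAction.stabilizer M24 S) X₃).ncard = 1008 ∧
      (MulAction.orbit (MulAction.stabilizer M24 S) X₄).ncard = 2688 ∧
      trios = {S} ∪ MulAction.orbit (MulAction.stabilizer M24 S) X₁ ∪
        MulAction.orbit (MulAction.stabilizer M24 S) X₂ ∪
        MulAction.orbit (MulAction.stabilizer M24 S) X₃ ∪
        MulAction.orbit (MulAction.stabilizer M24 S) X₄ := by
  obtain ⟨g, rfl⟩ := exists_smul_baseTrio hS
  have hΩ : ∀ g : M24, ∀ x ∈ trios, g • x ∈ trios := fun g _ h => smul_mem_trios g h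
  have hP : ∀ i < 5, trioStabParts.getD i ⟨0, 0, 0⟩ ∈ trioSub.parts := fun i hi => by
    have hlen : trioStabParts.length = 5 := rfl
    rw [List.getD_eq_getElem _ _ (hlen ▸ hi)]
    exact List.getElem_mem _
  have hinv : ∀ h ∈ MulAction.stabilizer M24 baseTrio, ∀ x,
      pairInv baseTrio (h • x) = pairInv baseTrio x := fun _ hh x => pairInv_smul hh x
  obtain ⟨-, a2, a3⟩ := trioSub.orbit_moved (by norm_num) trioSub_gens hΩ _ hinv trioSub_sep
    g (hP 4 (by norm_num))
  obtain ⟨-, b2, b3⟩ := trioSub.orbit_moved (by norm_num) trioSub_gens hΩ _ hinv trioSub_sep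
    g (hP 3 (by norm_num))
  obtain ⟨-, c2, c3⟩ := trioSub.orbit_moved (by norm_num) trioSub_gens hΩ _ hinv trioSub_sep
    g (hP 1 (by norm_num))
  obtain ⟨-, d2, d3⟩ := trioSub.orbit_moved (by norm_num) trioSub_gens hΩ _ hinv trioSub_sep
    g (hP 2 (by norm_num))
  refine ⟨_, a3, _, b3, _, c3, _, d3, a2.trans rfl, b2.trans rfl, c2.trans rfl, d2.trans rfl, ?_⟩
  refine Set.Subset.antisymm (fun y hy => ?_) ?_
  · rcases trioSub.cover_moved (by norm_num) trioSub_gens hΩ
      (trioStabParts.head (by simp [trioStabParts])) trioStabParts.tail rfl rfl rfl g hy with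
      h | ⟨P, hPm, h⟩
    · exact Or.inl (Or.inl (Or.inl (Or.inl h)))
    · obtain ⟨i, hi, rfl⟩ := List.getElem_of_mem hPm
      have hlen : trioStabParts.tail.length = 4 := rfl
      rcases i with _ | _ | _ | _ | i
      · exact Or.inl (Or.inr h)
      · exact Or.inr h
      · exact Or.inl (Or.inl (Or.inr h))
      · exact Or.inl (Or.inl (Or.inl (Or.inr h)))
      · omega
  · rintro y ((((rfl | ⟨h, rfl⟩) | ⟨h, rfl⟩) | ⟨h, rfl⟩) | ⟨h, rfl⟩)
    · exact hS
    · exact hΩ h.1 _ a3
    · exact hΩ h.1 _ b3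
    · exact hΩ h.1 _ c3
    · exact hΩ h.1 _ d3

end CfsgLib.GolayStructure
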