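/-
Transitivity on dodecads, suborbit certificate and maximality of the stabiliser.
-/
import Cfsg.Agent.Lib.GolayStructure.DataDodecad
import Cfsg.Agent.Lib.GolayStructure.Orbits

set_option autoImplicit false

namespace CfsgLib.GolayStructure

open Cfsg CfsgLib.Golay
open scoped Pointwise


theorem dodecad_mapsTo (r : ℕ) (hr : r < 2576) :
    (setKind).dec (fieldAt 24 dodecadTable r) ∈ dodecads := by
  have h := List.all_eq_true.1 dodecad_canon r (List.mem_range.2 hr)
  simp only [Bool.and_eq_true, beq_iff_eq] at h
  exact mem_dodecads_iff.2 ⟨_, inCode_iff.1 h.1, h.2, rfl⟩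

/-- All of them. -/
def dodecadAll : Cert setKind dodecads 2576 where
  gens := dodecadAllGens
  R := fieldAt 24 dodecadTable
  parts := dodecadAllParts
  gens_valid := dodecad_allGens
  parts_valid := dodecad_allParts
  covers := dodecad_allCovers
  injOn := setKind_injOn dodecad_inc
  mapsTo := dodecad_mapsTo
  ncard_eq := ncard_dodecads

/-- The suborbits of the base one. -/
def dodecadSub : Cert setKind dodecads 2576 where
  gens := dodecadStabGens
  R := fieldAt 24 dodecadTable
  parts := dodecadStabParts
  gens_valid := dodecad_stabGens
  parts_valid := dodecad_stabParts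
  covers := dodecad_stabCovers
  injOn := setKind_injOn dodecad_inc
  mapsTo := dodecad_mapsTo
  ncard_eq := ncard_dodecads

/-- The base one. -/
def baseDodecad : Finset GolayPt := (setKind).dec (fieldAt 24 dodecadTable dodecadRoot)

theorem orbit_baseDodecad : MulAction.orbit M24 baseDodecad = dodecads := by
  have h := dodecadAll.orbit_all (by norm_num) (dodecadAllParts.head (by simp [dodecadAllParts])) rfl
    fun g _ h => smul_mem_dodecads g h
  exact h

theorem exists_smul_baseDodecad {x : Finset GolayPt} (hx : x ∈ dodecads) : ∃ g : M24, g • baseDodecad = x := by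
  rw [← orbit_baseDodecad] at hx
  exact hx

theorem dodecadSub_gens : ∀ t ∈ dodecadSub.gens, m24Of t ∈ MulAction.stabilizer M24 baseDodecad :=
  gens_mem_stabilizer (K := setKind) dodecad_stabGens dodecad_stabFix


end CfsgLib.GolayStructure
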