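/-
Intersection numbers of dodecads and the suborbits of a dodecad stabiliser.
-/
import Cfsg.Agent.Lib.GolayStructure.DodecadOrbits

set_option autoImplicit false

namespace CfsgLib.GolayStructure

open Cfsg CfsgLib.Golay
open scoped Pointwise

theorem dodecadRootInter : dodecadStabParts.map (fun P =>
    (popc (fieldAt 24 dodecadTable dodecadRoot &&& fieldAt 24 dodecadTable P.root), P.size + 1)) =
    [(12, 1), (8, 495), (6, 1584), (4, 495), (0, 1)] := by
  decide +kernel

theorem dodecadSub_inter (P : Part) :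
    (baseDodecad ∩ setKind.dec (dodecadSub.R P.root)).card =
      popc (fieldAt 24 dodecadTable dodecadRoot &&& fieldAt 24 dodecadTable P.root) :=
  card_inter_unmask _ _

theorem mem_dodecadRootInter {P : Part} (hP : P ∈ dodecadSub.parts) :
    ((baseDodecad ∩ setKind.dec (dodecadSub.R P.root)).card, P.size + 1) ∈
      [(12, 1), (8, 495), (6, 1584), (4, 495), (0, 1)] := by
  rw [dodecadSub_inter, ← dodecadRootInter]
  exact List.mem_map_of_mem hP

theorem dodecadSub_sep : ∀ P ∈ dodecadSub.parts, ∀ Q ∈ dodecadSub.parts,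
    (baseDodecad ∩ setKind.dec (dodecadSub.R P.root)).card =
      (baseDodecad ∩ setKind.dec (dodecadSub.R Q.root)).card → P = Q := by
  intro P hP Q hQ h
  rw [dodecadSub_inter, dodecadSub_inter] at h
  have hnd : (dodecadStabParts.map fun P =>
      popc (fieldAt 24 dodecadTable dodecadRoot &&& fieldAt 24 dodecadTable P.root)).Nodup := by
    decide +kernel
  exact List.inj_on_of_nodup_map hnd hP hQ h

theorem card_baseDodecad : baseDodecad.card = 12 :=
  (card_unmask _).trans (by decide +kernel)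

theorem exists_dodecad_conj {d : Finset GolayPt} (hd : d ∈ dodecads) :
    ∃ g : M24, g • baseDodecad = d ∧ (∀ x ∈ dodecads,
      (d ∩ x).card = (baseDodecad ∩ g⁻¹ • x).card) := by
  obtain ⟨g, rfl⟩ := exists_smul_baseDodecad hd
  refine ⟨g, rfl, fun x _ => ?_⟩
  rw [← card_smul g (baseDodecad ∩ g⁻¹ • x), Finset.smul_finset_inter, smul_inv_smul]

theorem dodecad_related {d x y : Finset GolayPt} (hd : d ∈ dodecads) (hx : x ∈ dodecads)
    (hy : y ∈ dodecads) (h : (d ∩ x).card = (d ∩ y).card) :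
    ∃ g : M24, g • d = d ∧ g • x = y := by
  obtain ⟨a, rfl, ha⟩ := exists_dodecad_conj hd
  obtain ⟨k, hk, he⟩ := dodecadSub.related_of_inv (by norm_num) dodecadSub_gens
    (fun z => (baseDodecad ∩ z).card) (fun _ hh z => card_smul_inter hh z) dodecadSub_sep
    (smul_mem_dodecads a⁻¹ hx) (smul_mem_dodecads a⁻¹ hy) (by rw [← ha x hx, ← ha y hy, h])
  refine ⟨a * k * a⁻¹, ?_, ?_⟩
  · rw [mul_smul, mul_smul, inv_smul_smul, MulAction.mem_stabilizer_iff.1 hk]
  · rw [mul_smul, mul_smul, he, smul_inv_smul]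

theorem dodecad_inter_cases {d x : Finset GolayPt} (hd : d ∈ dodecads) (hx : x ∈ dodecads)
    (hne : x ≠ d) :
    (d ∩ x).card = 0 ∨ (d ∩ x).card = 4 ∨ (d ∩ x).card = 6 ∨ (d ∩ x).card = 8 := by
  obtain ⟨g, rfl, hg⟩ := exists_dodecad_conj hd
  rw [hg x hx]
  obtain ⟨P, hP, hxP⟩ := dodecadSub.exists_part (by norm_num) (smul_mem_dodecads g⁻¹ hx)
  obtain ⟨k, hk, he⟩ := dodecadSub.related dodecadSub_gens hP (dodecadSub.root_mem P) hxP
  have hm := mem_dodecadRootInter hP
  rw [← he, card_smul_inter hk]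
  simp only [List.mem_cons, Prod.mk.injEq, List.not_mem_nil, or_false] at hm
  rcases hm with ⟨h, h'⟩ | ⟨h, -⟩ | ⟨h, -⟩ | ⟨h, -⟩ | ⟨h, -⟩
  · exfalso
    apply hne
    have hcard := h
    have h1 : baseDodecad ⊆ setKind.dec (dodecadSub.R P.root) := by
      refine Finset.inter_eq_left.1 (Finset.eq_of_subset_of_card_le Finset.inter_subset_left ?_)
      rw [hcard]
      exact le_of_eq (card_baseDodecad)
    have h2 : setKind.dec (dodecadSub.R P.root) = baseDodecad :=
      (Finset.eq_of_subset_of_card_le h1 (le_of_eq (by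
        rw [(dodecadSub.set_subset hP (dodecadSub.root_mem P)).2, card_baseDodecad]))).symm
    rw [h2, MulAction.mem_stabilizer_iff.1 hk] at he
    rw [he, smul_inv_smul]
  · simp [h]
  · simp [h]
  · simp [h]
  · simp [h]

theorem dodecad_count {d : Finset GolayPt} (hd : d ∈ dodecads) :
    {x | x ∈ dodecads ∧ (d ∩ x).card = 4}.ncard = 495 ∧
    {x | x ∈ dodecads ∧ (d ∩ x).card = 6}.ncard = 1584 ∧
    {x | x ∈ dodecads ∧ (d ∩ x).card = 8}.ncard = 495 := by
  obtain ⟨g, rfl, -⟩ := exists_dodecad_conj hd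
  have key : ∀ k n, (k, n) ∈ [(12, 1), (8, 495), (6, 1584), (4, 495), (0, 1)] →
      {x | x ∈ dodecads ∧ ((g • baseDodecad) ∩ x).card = k}.ncard = n := by
    intro k n hkn
    rw [← dodecadRootInter] at hkn
    obtain ⟨P, hP, he⟩ := List.mem_map.1 hkn
    obtain ⟨he1, he2⟩ := Prod.mk.injEq _ _ _ _ ▸ he
    rw [smul_set_sep g dodecads (fun g _ h => smul_mem_dodecads g h),
      Set.ncard_image_of_injective _ (MulAction.injective g), ← he2, ← he1, ← dodecadSub_inter,
      dodecadSub.fiber_eq (by norm_num) dodecadSub_gens (fun z => (baseDodecad ∩ z).card)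
        (fun _ hh z => card_smul_inter hh z) dodecadSub_sep hP]
    exact dodecadSub.ncard_set hP
  exact ⟨key 4 495 (by decide), key 6 1584 (by decide), key 8 495 (by decide)⟩

end CfsgLib.GolayStructure
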