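/-
Subgroups of the code group containing a Sylow 2-subgroup: the indices 253, 759 and 1771.
-/
import Cfsg.Agent.Lib.GolayStructure.IndexBasic
import Cfsg.Agent.Lib.GolayStructure.OctadStab
import Cfsg.Agent.Lib.GolayStructure.Sextet
import Cfsg.Agent.Lib.GolayStructure.SextetOrbits
import Cfsg.Agent.Lib.GolayStructure.TrioOrbits
import Cfsg.Agent.Lib.PermGroups.SylowFix

set_option autoImplicit false

namespace CfsgLib.GolayStructure

open Cfsg CfsgLib.Golay
open scoped Pointwise Classical

theorem exists_subgroup_two {H : Subgroup M24} (h : 1024 ∣ Nat.card H) :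
    ∃ S : Subgroup M24, S ≤ H ∧ Nat.card S = 1024 := by
  have : Fact (Nat.Prime 2) := ⟨Nat.prime_two⟩
  obtain ⟨K, hK⟩ := Sylow.exists_subgroup_card_pow_prime (G := H) 2 (n := 10) (by simpa using h)
  refine ⟨K.map H.subtype, Subgroup.map_subtype_le K, ?_⟩
  rw [Subgroup.card_map_of_injective (Subgroup.subtype_injective _), hK]
  norm_num

theorem isPGroup_of_card_1024 {S : Subgroup M24} (hS : Nat.card S = 1024) : IsPGroup 2 S :=
  IsPGroup.of_card (n := 10) (by rw [hS]; norm_num)

theorem exists_fixed_octad {S : Subgroup M24} (hS : Nat.card S = 1024) :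
    ∃ O ∈ octads, ∀ s ∈ S, s • O = O := by
  have : Fact (Nat.Prime 2) := ⟨Nat.prime_two⟩
  obtain ⟨Q, hQ⟩ := (isPGroup_of_card_1024 hS).exists_le_sylow
  obtain ⟨O, hO, hfix⟩ := CfsgLib.PermGroups.exists_fixed_mem_orbit_of_not_dvd Q baseOctad
    (by rw [orbit_baseOctad, ncard_octads]; norm_num)
  exact ⟨O, orbit_baseOctad ▸ hO, fun s hs => hfix s (hQ hs)⟩

theorem kernel_mem {S : Subgroup M24} (hS : Nat.card S = 1024) {O : Finset GolayPt}
    (hO : O ∈ octads) (hfix : ∀ s ∈ S, s • O = O) {e : M24}
    (he : (e : Equiv.Perm GolayPt) ∈ octadKernel O) : e ∈ S := by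
  have : Fact (Nat.Prime 2) := ⟨Nat.prime_two⟩
  have hE : IsPGroup 2 ((octadKernel O).subgroupOf M24) :=
    IsPGroup.of_card (n := 4) (by
      rw [card_subgroupOf_M24 inf_le_left, card_octadKernel hO]; norm_num)
  have hnorm : S ≤ Subgroup.normalizer ((octadKernel O).subgroupOf M24) := by
    intro s hs
    rw [Subgroup.mem_normalizer_iff]
    intro g
    rw [Subgroup.mem_subgroupOf, Subgroup.mem_subgroupOf, mem_octadKernel_conj s, hfix s hs]
    rfl
  obtain ⟨k, hk⟩ :=
    IsPGroup.iff_card.1 ((isPGroup_of_card_1024 hS).to_sup_of_normal_right' hE hnorm)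
  have hd := Subgroup.card_subgroup_dvd_card (S ⊔ (octadKernel O).subgroupOf M24)
  rw [hk, natCard_M24, show (244823040 : ℕ) = 2 ^ 10 * 239085 by norm_num] at hd
  have hle : 2 ^ k ≤ 2 ^ 10 := Nat.le_of_dvd (by norm_num)
    ((Nat.Coprime.pow_left k (by norm_num : Nat.Coprime 2 239085)).dvd_of_dvd_mul_right hd)
  have heq : S = S ⊔ (octadKernel O).subgroupOf M24 :=
    Subgroup.eq_of_le_of_card_ge le_sup_left (by rw [hk, hS]; exact hle)
  rw [heq]
  exact Subgroup.mem_sup_right he

theorem eight_le_orbit {S : Subgroup M24} (hS : Nat.card S = 1024) (x : GolayPt) :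
    8 ≤ (subOrb S x).card := by
  have h := card_subOrb_mul S x
  have h1 := Subgroup.card_dvd_of_le
    (inf_le_left : S ⊓ MulAction.stabilizer M24 x ≤ S)
  have h2 := Subgroup.card_dvd_of_le
    (inf_le_right : S ⊓ MulAction.stabilizer M24 x ≤ MulAction.stabilizer M24 x)
  rw [hS] at h h1
  rw [card_stabilizer_point x] at h2
  have h3 : Nat.card ↥(S ⊓ MulAction.stabilizer M24 x) ≤ 128 :=
    Nat.le_of_dvd (by norm_num) ((show Nat.gcd 1024 10200960 = 128 by decide +kernel) ▸
      Nat.dvd_gcd h1 h2)
  by_contra hlt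
  rw [not_le] at hlt
  nlinarith [Nat.zero_le (Nat.card ↥(S ⊓ MulAction.stabilizer M24 x))]

theorem subOrb_octad {S : Subgroup M24} (hS : Nat.card S = 1024) {O : Finset GolayPt}
    (hO : O ∈ octads) (hfix : ∀ s ∈ S, s • O = O) {x : GolayPt} (hx : x ∈ O) :
    subOrb S x = O := by
  refine Finset.eq_of_subset_of_card_le (fun y hy => ?_)
    (by rw [card_eq_of_mem_octads hO]; exact eight_le_orbit hS x)
  obtain ⟨s, hs, rfl⟩ := mem_subOrb.1 hy
  rw [← hfix s hs]
  exact Finset.smul_mem_smul_finset hx

/-- A subgroup containing a Sylow 2-subgroup fixes its octad or is transitive. -/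
theorem stab_or_transitive {H S : Subgroup M24} (hS : Nat.card S = 1024) (hSH : S ≤ H)
    {O : Finset GolayPt} (hO : O ∈ octads) (hfix : ∀ s ∈ S, s • O = O) :
    (∀ h ∈ H, h • O = O) ∨ ∀ x y : GolayPt, y ∈ subOrb H x := by
  by_cases hall : ∀ h ∈ H, h • O = O
  · exact Or.inl hall
  refine Or.inr ?_
  simp only [not_forall] at hall
  obtain ⟨h, hh, hne⟩ := hall
  obtain ⟨x, hx, hxo⟩ : ∃ x ∈ O, h • x ∉ O := by
    by_contra hcon
    simp only [not_exists, not_and, not_not] at hcon
    refine hne (Finset.eq_of_subset_of_card_le (fun y hy => ?_)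
      (Finset.card_smul_finset h O).ge)
    obtain ⟨z, hz, rfl⟩ := Finset.mem_smul_finset.1 hy
    exact hcon z hz
  have huniv : ∀ z, z ∈ subOrb H x := by
    intro z
    by_cases hz : z ∈ O
    · obtain ⟨s, hs, rfl⟩ := mem_subOrb.1 ((subOrb_octad hS hO hfix hx).symm ▸ hz)
      exact mem_subOrb.2 ⟨s, hSH hs, rfl⟩
    · obtain ⟨g, hg, hgz⟩ := octadKernel_transitive hO hxo hz
      have hgS : (⟨g, (mem_octadKernel.1 hg).1⟩ : M24) ∈ S := kernel_mem hS hO hfix hg
      have := smul_mem_subOrb (hSH hgS) (mem_subOrb.2 ⟨h, hh, rfl⟩ : h • x ∈ subOrb H x)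
      rwa [show (⟨g, (mem_octadKernel.1 hg).1⟩ : M24) • (h • x) = z from hgz] at this
  intro a b
  rw [subOrb_eq_of_mem (huniv a)]
  exact huniv b

theorem card_stabilizer_sextet {Sx : Finset (Finset GolayPt)} (h : Sx ∈ sextets) :
    Nat.card (MulAction.stabilizer M24 Sx) = 138240 := by
  have := card_stabilizer_of_orbit orbit_baseSextet h
  rw [ncard_sextets] at this
  omega

theorem card_stabilizer_trio {T : Finset (Finset GolayPt)} (h : T ∈ trios) :
    Nat.card (MulAction.stabilizer M24 T) = 64512 := by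
  have := card_stabilizer_of_orbit orbit_baseTrio h
  rw [ncard_trios] at this
  omega

/-- A large transitive subgroup cannot have a point stabiliser fixing the octad. -/
theorem trio_contra {H S : Subgroup M24} (hS : Nat.card S = 1024) (hSH : S ≤ H)
    {O : Finset GolayPt} (hO : O ∈ octads) (hfix : ∀ s ∈ S, s • O = O)
    (htr : ∀ x y : GolayPt, y ∈ subOrb H x) (hN : 64512 < Nat.card H) {a : GolayPt} (ha : a ∈ O)
    (haO : ∀ k ∈ H, k • a = a → k • O = O) : False := by
  have h24 : ∀ x, (subOrb H x).card = 24 := fun x => by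
    rw [Finset.eq_univ_of_forall (htr x), card_univ_golayPt]
  have hJ : subOrb (H ⊓ MulAction.stabilizer M24 O) a = O := by
    refine Finset.Subset.antisymm (fun y hy => ?_) fun y hy => ?_
    · obtain ⟨k, hk, rfl⟩ := mem_subOrb.1 hy
      have h2 : k • O = O := hk.2
      rw [← h2]
      exact Finset.smul_mem_smul_finset ha
    · obtain ⟨s, hs, rfl⟩ := mem_subOrb.1 ((subOrb_octad hS hO hfix ha).symm ▸ hy)
      exact mem_subOrb.2 ⟨s, ⟨hSH hs, hfix s hs⟩, rfl⟩
  have hJc := card_subOrb_mul (H ⊓ MulAction.stabilizer M24 O) a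
  rw [hJ, card_eq_of_mem_octads hO,
    show H ⊓ MulAction.stabilizer M24 O ⊓ MulAction.stabilizer M24 a =
      H ⊓ MulAction.stabilizer M24 a from le_antisymm (fun k hk => ⟨hk.1.1, hk.2⟩)
        (fun k hk => ⟨⟨hk.1, haO k hk.1 hk.2⟩, hk.2⟩)] at hJc
  have hH := card_subOrb_mul H a
  rw [h24] at hH
  have hT := ncard_orbit_mul H O
  rw [← hJc] at hT
  have hcard : {y | ∃ h ∈ H, h • O = y}.ncard = 3 := by
    have hpos : 0 < Nat.card ↥(H ⊓ MulAction.stabilizer M24 a) := Nat.card_pos
    nlinarith
  obtain ⟨T, hTset⟩ : ∃ T : Finset (Finset GolayPt), (T : Set (Finset GolayPt)) =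
      {y | ∃ h ∈ H, h • O = y} :=
    ⟨(Set.toFinite _).toFinset, Set.Finite.coe_toFinset _⟩
  have hmem : ∀ o, o ∈ T ↔ ∃ h ∈ H, h • O = o := fun o => by
    rw [← Finset.mem_coe, hTset]; rfl
  have hT3 : T.card = 3 := by rw [← Set.ncard_coe_finset, hTset, hcard]
  have hoct : ∀ o ∈ T, o ∈ octads := fun o ho => by
    obtain ⟨h, -, rfl⟩ := (hmem o).1 ho
    exact smul_mem_octads h hO
  have hclosed : ∀ h ∈ H, ∀ o ∈ T, h • o ∈ T := fun h hh o ho => by
    obtain ⟨k, hk, rfl⟩ := (hmem o).1 ho
    exact (hmem _).2 ⟨h * k, mul_mem hh hk, mul_smul h k O⟩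
  have hconst : ∀ z, (T.filter fun o => z ∈ o).card = (T.filter fun o => a ∈ o).card := by
    intro z
    obtain ⟨h, hh, rfl⟩ := mem_subOrb.1 (htr a z)
    symm
    refine Finset.card_nbij' (fun o => h • o) (fun o => h⁻¹ • o) ?_ ?_ ?_ ?_
    · intro o ho
      rw [Finset.mem_coe, Finset.mem_filter] at ho ⊢
      exact ⟨hclosed h hh o ho.1, Finset.smul_mem_smul_finset ho.2⟩
    · intro o ho
      rw [Finset.mem_coe, Finset.mem_filter] at ho ⊢
      refine ⟨hclosed _ (inv_mem hh) o ho.1, ?_⟩
      rw [← Finset.smul_mem_smul_finset_iff h, smul_inv_smul]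
      exact ho.2
    · exact fun o _ => inv_smul_smul h o
    · exact fun o _ => smul_inv_smul h o
  have hsum : ∑ z : GolayPt, (T.filter fun o => z ∈ o).card = 24 := by
    simp only [Finset.card_filter]
    rw [Finset.sum_comm]
    rw [Finset.sum_congr rfl fun o ho => show (∑ z : GolayPt, if z ∈ o then 1 else 0) = 8 by
      rw [← Finset.card_filter, show (Finset.univ.filter fun z => z ∈ o) = o by ext; simp]
      exact card_eq_of_mem_octads (hoct o ho)]
    rw [Finset.sum_const, hT3]
    rfl
  rw [Finset.sum_congr rfl fun z _ => hconst z, Finset.sum_const, card_univ_golayPt,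
    smul_eq_mul] at hsum
  have hTtrio : T ∈ trios := by
    refine ⟨hT3, hoct, fun o ho o' ho' hne => Finset.disjoint_left.2 fun z hz hz' => ?_⟩
    have h1 := hconst z
    have : 1 < (T.filter fun o => z ∈ o).card :=
      Finset.one_lt_card.2 ⟨o, Finset.mem_filter.2 ⟨ho, hz⟩, o', Finset.mem_filter.2 ⟨ho', hz'⟩, hne⟩
    omega
  have hle : H ≤ MulAction.stabilizer M24 T := fun h hh => by
    rw [MulAction.mem_stabilizer_iff]
    refine Finset.eq_of_subset_of_card_le (fun y hy => ?_) (Finset.card_smul_finset h T).ge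
    obtain ⟨o, ho, rfl⟩ := Finset.mem_smul_finset.1 hy
    exact hclosed h hh o ho
  have := card_le_of_le hle
  rw [card_stabilizer_trio hTtrio] at this
  omega

/-- A system of blocks is incompatible with an element fixing few points. -/
theorem blocks_contra {g : M24} {p r : ℕ} (hp : p = 5 ∨ p = 7 ∨ p = 11) (hg : orderOf g = p)
    {B : Finset (Finset GolayPt)} (hr : r < p) (hcard : ∀ b ∈ B, b.card = r)
    (hdisj : ∀ b ∈ B, ∀ b' ∈ B, b ≠ b' → Disjoint b b') (hinv : ∀ b ∈ B, g • b ∈ B)
    (hbig : 5 ≤ B.card % p * r) : False := by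
  have : Fact p.Prime := ⟨by rcases hp with rfl | rfl | rfl <;> norm_num⟩
  have hgp : g ^ p = 1 := hg ▸ pow_orderOf_eq_one g
  have h1 := fixed_modEq hgp B hinv
  have hsub : (B.filter fun b => g • b = b).biUnion id ⊆ Finset.univ.filter fun x => g • x = x := by
    intro x hx
    obtain ⟨b, hb, hxb⟩ := Finset.mem_biUnion.1 hx
    obtain ⟨hb, hfix⟩ := Finset.mem_filter.1 hb
    have hinvb : ∀ y ∈ b, g • y ∈ b := fun y hy => by
      have := Finset.smul_mem_smul_finset (a := g) hy
      rwa [hfix] at this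
    have h2 := fixed_modEq hgp b hinvb
    rw [hcard b hb, Nat.ModEq] at h2
    have h3 := Finset.card_filter_le b fun y => g • y = y
    rw [hcard b hb] at h3
    rw [Nat.mod_eq_of_lt hr, Nat.mod_eq_of_lt (by omega)] at h2
    have h4 : (b.filter fun y => g • y = y) = b :=
      Finset.eq_of_subset_of_card_le (Finset.filter_subset _ _) (by rw [h2, hcard b hb])
    refine Finset.mem_filter.2 ⟨Finset.mem_univ _, ?_⟩
    have hxb' : x ∈ b.filter fun y => g • y = y := h4.symm ▸ hxb
    exact (Finset.mem_filter.1 hxb').2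
  have h5 := fixed_lt_five hp hg
  have h6 := Finset.card_le_card hsub
  rw [Finset.card_biUnion (s := B.filter fun b => g • b = b) (t := id) (fun b hb b' hb' hne =>
    hdisj b (Finset.mem_filter.1 hb).1 b' (Finset.mem_filter.1 hb').1 hne),
    Finset.sum_congr rfl (fun b hb => show (id b).card = r from hcard b (Finset.mem_filter.1 hb).1),
    Finset.sum_const, smul_eq_mul] at h6
  have h7 : B.card % p ≤ (B.filter fun b => g • b = b).card := by
    rw [← show (B.filter fun b => g • b = b).card % p = B.card % p from h1]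
    exact Nat.mod_le _ _
  have := Nat.mul_le_mul_right r h7
  omega

/-- The transitive subgroups containing a Sylow 2-subgroup, of the three orders in question. -/
theorem transitive_eq_sextet {H S : Subgroup M24} (hS : Nat.card S = 1024) (hSH : S ≤ H)
    {O : Finset GolayPt} (hO : O ∈ octads) (hfix : ∀ s ∈ S, s • O = O)
    (htr : ∀ x y : GolayPt, y ∈ subOrb H x)
    (hN : Nat.card H = 967680 ∨ Nat.card H = 322560 ∨ Nat.card H = 138240) :
    Nat.card H = 138240 ∧ ∃ Sx ∈ sextets, H = MulAction.stabilizer M24 Sx := by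
  obtain ⟨a, ha⟩ : O.Nonempty := Finset.card_pos.1 (by rw [card_eq_of_mem_octads hO]; norm_num)
  obtain ⟨y0, hy0⟩ : ∃ y, y ∉ O := by
    by_contra h
    simp only [not_exists, not_not] at h
    have := card_eq_of_mem_octads hO
    rw [Finset.eq_univ_of_forall h, card_univ_golayPt] at this
    omega
  set A := H ⊓ MulAction.stabilizer M24 a with hAdef
  have hM : 24 * Nat.card A = Nat.card H := by
    rw [← card_subOrb_mul H a, Finset.eq_univ_of_forall (htr a), card_univ_golayPt]
  set big := subOrb A y0 with hbig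
  have hout : ∀ z, z ∉ O → z ∈ big := by
    intro z hz
    obtain ⟨g, hg, hgz⟩ := octadKernel_transitive hO hy0 hz
    exact mem_subOrb.2 ⟨⟨g, (mem_octadKernel.1 hg).1⟩,
      ⟨hSH (kernel_mem hS hO hfix hg), (mem_octadKernel.1 hg).2 a ha⟩, hgz⟩
  have habig : a ∉ big := fun h => by
    obtain ⟨k, hk, he⟩ := mem_subOrb.1 h
    exact hy0 ((MulAction.injective k (he.trans hk.2.symm)).symm ▸ ha)
  set R := Finset.univ.filter fun z => z ≠ a ∧ z ∉ big with hR
  have memR : ∀ {z}, z ∈ R ↔ z ≠ a ∧ z ∉ big := fun {z} => by simp [R]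
  clear_value R
  have hRO : R ⊆ O := fun z hz => by
    by_contra h
    exact (memR.1 hz).2 (hout z h)
  have hbig16 : 16 ≤ big.card := by
    have h := Finset.card_le_card (s := Oᶜ) (t := big) fun z hz => hout z (Finset.mem_compl.1 hz)
    rwa [Finset.card_compl, card_eq_of_mem_octads hO, card_golayPt] at h
  have hsum : big.card + R.card = 23 := by
    have h : Finset.univ.erase a = big ∪ R := by
      ext z
      simp only [Finset.mem_erase, Finset.mem_univ, and_true, Finset.mem_union, memR]
      constructor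
      · intro hz
        by_cases hb : z ∈ big
        · exact Or.inl hb
        · exact Or.inr ⟨hz, hb⟩
      · rintro (hb | ⟨hz, -⟩)
        · exact fun e => habig (e ▸ hb)
        · exact hz
    have h2 := congrArg Finset.card h
    rw [Finset.card_erase_of_mem (Finset.mem_univ a), card_univ_golayPt,
      Finset.card_union_of_disjoint (Finset.disjoint_left.2 fun z hz hz' => (memR.1 hz').2 hz)] at h2
    omega
  have hRinv : ∀ k ∈ A, k • R = R := by
    intro k hk
    refine Finset.eq_of_subset_of_card_le (fun y hy => ?_) (Finset.card_smul_finset k R).ge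
    obtain ⟨z, hz, rfl⟩ := Finset.mem_smul_finset.1 hy
    obtain ⟨h1, h2⟩ := memR.1 hz
    refine memR.2 ⟨fun e => h1 (MulAction.injective k (e.trans hk.2.symm)), fun e => h2 ?_⟩
    have := smul_mem_subOrb (inv_mem hk) e
    rwa [inv_smul_smul] at this
  have hR4 : R.card ≤ 4 := by
    by_contra h5
    refine trio_contra hS hSH hO hfix htr (by omega) ha fun k hk hka => ?_
    refine octad_unique (smul_mem_octads k hO) hO ?_
    refine le_trans (by omega : 5 ≤ R.card) (Finset.card_le_card (Finset.subset_inter ?_ hRO))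
    rw [← hRinv k ⟨hk, hka⟩]
    exact Finset.smul_finset_subset_smul_finset hRO
  have hdvd : big.card ∣ Nat.card A := card_subOrb_dvd A y0
  clear_value big
  have hRcases : R.card = 2 ∨ R.card = 3 := by
    have hb : big.card = 19 ∨ big.card = 20 ∨ big.card = 21 ∨ big.card = 22 ∨ big.card = 23 := by
      omega
    rcases hN with h | h | h
    · rw [show Nat.card A = 40320 by omega] at hdvd
      rcases hb with e | e | e | e | e <;> rw [e] at hdvd <;> norm_num at hdvd <;> omega
    · rw [show Nat.card A = 13440 by omega] at hdvd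
      rcases hb with e | e | e | e | e <;> rw [e] at hdvd <;> norm_num at hdvd <;> omega
    · rw [show Nat.card A = 5760 by omega] at hdvd
      rcases hb with e | e | e | e | e <;> rw [e] at hdvd <;> norm_num at hdvd <;> omega
  choose hy hyH hya using fun y => mem_subOrb.1 (htr a y)
  set Rf : GolayPt → Finset GolayPt := fun y => hy y • R with hRf
  have rf_eq : ∀ {k}, k ∈ H → k • R = Rf (k • a) := by
    intro k hk
    have h1 : (hy (k • a))⁻¹ * k ∈ A := by
      refine Subgroup.mem_inf.2 ⟨mul_mem (inv_mem (hyH _)) hk, ?_⟩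
      rw [MulAction.mem_stabilizer_iff, mul_smul, inv_smul_eq_iff, hya]
    have h2 := hRinv _ h1
    rw [mul_smul, inv_smul_eq_iff] at h2
    exact h2
  have rf_smul : ∀ {k}, k ∈ H → ∀ y, Rf (k • y) = k • Rf y := by
    intro k hk y
    have := rf_eq (mul_mem hk (hyH y))
    rw [mul_smul, mul_smul, hya] at this
    exact this.symm
  have rf_a : Rf a = R := by
    have h1 : (1 : M24) • R = Rf ((1 : M24) • a) := rf_eq (one_mem H)
    rw [one_smul, one_smul] at h1
    exact h1.symm
  have rf_card : ∀ y, (Rf y).card = R.card := fun y => Finset.card_smul_finset _ R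
  clear_value Rf
  set In : GolayPt → Finset GolayPt := fun y => Finset.univ.filter fun z => y ∈ Rf z with hIn
  have memIn : ∀ {y z}, z ∈ In y ↔ y ∈ Rf z := fun {y z} => by simp [In]
  clear_value In
  have in_smul : ∀ {k}, k ∈ H → ∀ y, In (k • y) = k • In y := by
    intro k hk y
    ext z
    rw [Finset.mem_smul_finset]
    constructor
    · intro hz
      refine ⟨k⁻¹ • z, memIn.2 ?_, smul_inv_smul k z⟩
      rw [rf_smul (inv_mem hk), ← Finset.smul_mem_smul_finset_iff k, smul_inv_smul]
      exact memIn.1 hz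
    · rintro ⟨w, hw, rfl⟩
      exact memIn.2 (by rw [rf_smul hk]; exact Finset.smul_mem_smul_finset (memIn.1 hw))
  have hInA : (In a).card = R.card := by
    have h1 : ∑ y : GolayPt, (In y).card = ∑ z : GolayPt, (Rf z).card := by
      simp only [hIn, Finset.card_filter]
      rw [Finset.sum_comm]
      refine Finset.sum_congr rfl fun z _ => ?_
      rw [← Finset.card_filter]
      congr 1
      ext y; simp
    rw [Finset.sum_congr rfl fun y _ => show (In y).card = (In a).card by
        conv_lhs => rw [← hya y, in_smul (hyH y)]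
        exact Finset.card_smul_finset _ _,
      Finset.sum_congr rfl fun z _ => rf_card z, Finset.sum_const, Finset.sum_const,
      card_univ_golayPt, smul_eq_mul, smul_eq_mul] at h1
    omega
  have hsym : In a = R := by
    refine Finset.eq_of_subset_of_card_le (fun z hz => memR.2 ⟨fun e => ?_, fun hb => ?_⟩) hInA.ge
    · have := memIn.1 hz
      rw [e, rf_a] at this
      exact (memR.1 this).1 rfl
    · have hsub : big ⊆ In a := by
        intro w hw
        rw [hbig, ← subOrb_eq_of_mem (hbig ▸ hb : z ∈ subOrb A y0)] at hw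
        obtain ⟨k, hk, rfl⟩ := mem_subOrb.1 hw
        refine memIn.2 ?_
        rw [rf_smul hk.1]
        have := Finset.smul_mem_smul_finset (a := k) (memIn.1 hz)
        rwa [show k • a = a from hk.2] at this
      have := Finset.card_le_card hsub
      omega
  have hback : ∀ y ∈ R, a ∈ Rf y := fun y hy' => memIn.1 (hsym.symm ▸ hy')
  set T : GolayPt → Finset GolayPt := fun y => insert y (Rf y) with hT
  have t_smul : ∀ {k}, k ∈ H → ∀ y, T (k • y) = k • T y := by
    intro k hk y
    simp only [hT, rf_smul hk, Finset.smul_finset_insert]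
  have hnotin : ∀ y, y ∉ Rf y := by
    intro y h
    conv at h => rw [← hya y, rf_smul (hyH y), Finset.smul_mem_smul_finset_iff, rf_a]
    exact (memR.1 h).1 rfl
  have t_card : ∀ y, (T y).card = R.card + 1 := fun y => by
    simp only [hT]
    rw [Finset.card_insert_of_notMem (hnotin y), rf_card]
  have t_a : T a = insert a R := by simp only [hT, rf_a]
  clear_value T
  have hblock : ∀ y ∈ T a, T y = T a := by
    intro y hy'
    rw [t_a, Finset.mem_insert] at hy'
    rcases hy' with rfl | hyR
    · rfl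
    refine Finset.eq_of_subset_of_card_le ?_ (by rw [t_card, t_card])
    intro z hz
    simp only [hT, Finset.mem_insert] at hz
    rw [t_a, Finset.mem_insert]
    rcases hz with rfl | hz
    · exact Or.inr hyR
    by_contra hcon
    simp only [not_or] at hcon
    have hzbig : z ∈ big := by
      by_contra h
      exact hcon.2 (memR.2 ⟨hcon.1, h⟩)
    have hsub : big ⊆ R.biUnion fun u => (Rf u).erase a := by
      intro w hw
      rw [hbig, ← subOrb_eq_of_mem (hbig ▸ hzbig : z ∈ subOrb A y0)] at hw
      obtain ⟨k, hk, rfl⟩ := mem_subOrb.1 hw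
      refine Finset.mem_biUnion.2 ⟨k • y, ?_, Finset.mem_erase.2 ⟨?_, ?_⟩⟩
      · rw [← hRinv k hk]; exact Finset.smul_mem_smul_finset hyR
      · exact fun e => hcon.1 (MulAction.injective k (e.trans hk.2.symm))
      · rw [rf_smul hk.1]; exact Finset.smul_mem_smul_finset hz
    have h1 := (Finset.card_le_card hsub).trans
      (Finset.card_biUnion_le_card_mul R _ (R.card - 1) fun u hu => by
        rw [Finset.card_erase_of_mem (hback u hu), rf_card])
    rcases hRcases with e | e <;> rw [e] at h1 hsum <;> omega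
  have hblock' : ∀ y z, z ∈ T y → T z = T y := by
    intro y z hz
    conv at hz => rw [← hya y, t_smul (hyH y)]
    obtain ⟨z0, hz0, rfl⟩ := Finset.mem_smul_finset.1 hz
    rw [t_smul (hyH y), hblock z0 hz0, ← t_smul (hyH y), hya]
  set B := Finset.univ.image T with hB
  have memB : ∀ {b}, b ∈ B ↔ ∃ y, T y = b := fun {b} => by simp [B]
  clear_value B
  have hBcard : ∀ b ∈ B, b.card = R.card + 1 := fun b hb => by
    obtain ⟨y, rfl⟩ := memB.1 hb
    exact t_card y
  have hBdisj : ∀ b ∈ B, ∀ b' ∈ B, b ≠ b' → Disjoint b b' := by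
    intro b hb b' hb' hne
    obtain ⟨y, rfl⟩ := memB.1 hb
    obtain ⟨y', rfl⟩ := memB.1 hb'
    exact Finset.disjoint_left.2 fun z hz hz' =>
      hne ((hblock' y z hz).symm.trans (hblock' y' z hz'))
  have hBinv : ∀ k ∈ H, ∀ b ∈ B, k • b ∈ B := fun k hk b hb => by
    obtain ⟨y, rfl⟩ := memB.1 hb
    exact memB.2 ⟨k • y, t_smul hk y⟩
  have hBnum : B.card * (R.card + 1) = 24 := by
    have hu : B.biUnion id = Finset.univ := Finset.eq_univ_of_forall fun z =>
      Finset.mem_biUnion.2 ⟨T z, memB.2 ⟨z, rfl⟩, by simp [hT]⟩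
    have := congrArg Finset.card hu
    rwa [Finset.card_biUnion (s := B) (t := id) (fun b hb b' hb' hne => hBdisj b hb b' hb' hne),
      Finset.sum_congr rfl (fun b hb => show (id b).card = R.card + 1 from hBcard b hb),
      Finset.sum_const, smul_eq_mul, card_univ_golayPt] at this
  rcases hRcases with e | e
  · exfalso
    have : Fact (Nat.Prime 5) := ⟨by norm_num⟩
    obtain ⟨g, hgA, hg⟩ := exists_orderOf (H := A) 5 (by omega)
    rw [e] at hBnum
    exact blocks_contra (r := 3) (Or.inl rfl) hg (by norm_num)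
      (fun b hb => by rw [hBcard b hb, e]) hBdisj (hBinv g hgA.1)
      (by rw [show B.card = 8 by omega]; norm_num)
  · rw [e] at hBnum
    have hB6 : B.card = 6 := by omega
    have hM7 : Nat.card H = 138240 := by
      rcases hN with h | h | h
      · exfalso
        have : Fact (Nat.Prime 7) := ⟨by norm_num⟩
        obtain ⟨g, hgA, hg⟩ := exists_orderOf (H := A) 7 (by omega)
        exact blocks_contra (r := 4) (Or.inr (Or.inl rfl)) hg (by norm_num)
          (fun b hb => by rw [hBcard b hb, e]) hBdisj (hBinv g hgA.1)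
          (by rw [hB6]; norm_num)
      · exfalso
        have : Fact (Nat.Prime 7) := ⟨by norm_num⟩
        obtain ⟨g, hgA, hg⟩ := exists_orderOf (H := A) 7 (by omega)
        exact blocks_contra (r := 4) (Or.inr (Or.inl rfl)) hg (by norm_num)
          (fun b hb => by rw [hBcard b hb, e]) hBdisj (hBinv g hgA.1)
          (by rw [hB6]; norm_num)
      · exact h
    have hsx : B ∈ sextets := by
      have hTO : T a ⊆ O := by rw [t_a]; exact Finset.insert_subset ha hRO
      have hTOy : ∀ y ∈ O, T y ⊆ O := by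
        intro y hy'
        obtain ⟨s, hs, rfl⟩ := mem_subOrb.1 ((subOrb_octad hS hO hfix ha).symm ▸ hy')
        rw [t_smul (hSH hs), ← hfix s hs]
        exact Finset.smul_finset_subset_smul_finset hTO
      have hTa4 : (T a).card = 4 := by rw [t_card, e]
      obtain ⟨y, hyO, hyT⟩ := Finset.exists_mem_notMem_of_card_lt_card (s := T a) (t := O)
        (by rw [hTa4, card_eq_of_mem_octads hO]; norm_num)
      have hunion : T a ∪ T y = O := by
        refine Finset.eq_of_subset_of_card_le (Finset.union_subset hTO (hTOy y hyO)) ?_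
        rw [Finset.card_union_of_disjoint (hBdisj _ (memB.2 ⟨a, rfl⟩) _ (memB.2 ⟨y, rfl⟩)
          fun he => hyT (he ▸ by simp [hT])), hTa4, t_card, e, card_eq_of_mem_octads hO]
      have hnb : ∀ {z}, z ∉ T a → z ∈ big := fun {z} hz => by
        by_contra hb
        rw [t_a, Finset.mem_insert, not_or] at hz
        exact hz.2 (memR.2 ⟨hz.1, hb⟩)
      have hgen : ∀ z, z ∉ T a → T a ∪ T z ∈ octads := by
        intro z hz
        have h1 := hnb hz
        rw [hbig, ← subOrb_eq_of_mem (hbig ▸ hnb hyT : y ∈ subOrb A y0)] at h1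
        obtain ⟨k, hk, rfl⟩ := mem_subOrb.1 h1
        have hka : k • T a = T a := by
          rw [← t_smul hk.1, show k • a = a from hk.2]
        rw [t_smul hk.1, ← hka, ← Finset.smul_finset_union, hunion]
        exact smul_mem_octads k hO
      refine ⟨hB6, fun b hb => by rw [hBcard b hb, e], fun b hb b' hb' hne => ?_⟩
      obtain ⟨u, rfl⟩ := memB.1 hb
      obtain ⟨v, rfl⟩ := memB.1 hb'
      have hv : (hy u)⁻¹ • v ∉ T a := by
        intro hcon
        apply hne
        have := Finset.smul_mem_smul_finset (a := hy u) hcon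
        rw [smul_inv_smul, ← t_smul (hyH u), hya] at this
        exact (hblock' u v this).symm
      have := smul_mem_octads (hy u) (hgen _ hv)
      rwa [Finset.smul_finset_union, ← t_smul (hyH u), ← t_smul (hyH u), hya,
        smul_inv_smul] at this
    refine ⟨hM7, B, hsx, Subgroup.eq_of_le_of_card_ge (fun k hk => ?_) ?_⟩
    · rw [MulAction.mem_stabilizer_iff]
      refine Finset.eq_of_subset_of_card_le (fun w hw => ?_) (Finset.card_smul_finset k B).ge
      obtain ⟨b, hb, rfl⟩ := Finset.mem_smul_finset.1 hw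
      exact hBinv k hk b hb
    · rw [card_stabilizer_sextet hsx, hM7]

end CfsgLib.GolayStructure
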