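/-
The subgroups of index 253 of the point stabiliser of the code group.
-/
import Cfsg.Agent.Lib.GolayStructure.IndexM22
import Cfsg.Agent.Lib.GolayStructure.IndexOdd

set_option autoImplicit false

namespace CfsgLib.GolayStructure

open Cfsg CfsgLib.Golay
open scoped Pointwise Classical

theorem card_stabilizer_five (e : Fin 5 ↪ GolayPt) :
    Nat.card (MulAction.stabilizer M24 e) = 48 := by
  have horb : MulAction.orbit M24 e = Set.univ :=
    Set.eq_univ_of_forall fun f => by
      obtain ⟨k, hk, hk'⟩ := exists_M24_map e f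
      exact ⟨⟨k, hk⟩, DFunLike.ext _ _ hk'⟩
  have hc := card_stabilizer_of_orbit horb (Set.mem_univ e)
  rw [Set.ncard_univ, Nat.card_eq_fintype_card (α := Fin 5 ↪ GolayPt), Fintype.card_embedding_eq,
    Fintype.card_fin, card_golayPt, show Nat.descFactorial 24 5 = 5100480 by decide] at hc
  omega

/-- Eight points outside every octad have a pointwise stabiliser of order at most three. -/
theorem card_pointwise_le {T : Finset GolayPt} (hT : T.card = 8) (hno : T ∉ octads)
    {K : Subgroup M24} (hK : ∀ k ∈ K, ∀ t ∈ T, k • t = t) : Nat.card K ≤ 3 := by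
  obtain ⟨F, hFT, hF⟩ := Finset.exists_subset_card_eq (show 5 ≤ T.card by omega)
  obtain ⟨O, ⟨hO, hFO⟩, -⟩ := exists_octad_above hF
  obtain ⟨q, hqT, hqO⟩ : ∃ q ∈ T, q ∉ O := by
    by_contra hcon
    simp only [not_exists, not_and, not_not] at hcon
    exact hno (Finset.eq_of_subset_of_card_le hcon
      (by rw [card_eq_of_mem_octads hO, hT]) ▸ hO)
  let e : Fin 5 ↪ GolayPt :=
    ((Finset.equivFinOfCardEq hF).symm.toEmbedding).trans (Function.Embedding.subtype _)
  have he : ∀ i, e i ∈ F := fun i => ((Finset.equivFinOfCardEq hF).symm i).2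
  set A := MulAction.stabilizer M24 e with hA
  have hsub : Oᶜ ⊆ subOrb A q := by
    intro z hz
    obtain ⟨g, hg, hgz⟩ := octadKernel_transitive hO hqO (Finset.mem_compl.1 hz)
    refine mem_subOrb.2 ⟨⟨g, (mem_octadKernel.1 hg).1⟩, ?_, hgz⟩
    rw [hA, MulAction.mem_stabilizer_iff]
    exact DFunLike.ext _ _ fun i => (mem_octadKernel.1 hg).2 _ (hFO (he i))
  have h16 : 16 ≤ (subOrb A q).card := by
    have h := Finset.card_le_card hsub
    rwa [Finset.card_compl, card_eq_of_mem_octads hO, card_golayPt] at h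
  have hmul := card_subOrb_mul A q
  rw [card_stabilizer_five e] at hmul
  have hle : Nat.card K ≤ Nat.card ↥(A ⊓ MulAction.stabilizer M24 q) :=
    card_le_of_le fun k hk => ⟨by
      show k • e = e
      exact DFunLike.ext _ _ fun i => hK k hk _ (hFT (he i)), hK k hk q hqT⟩
  nlinarith [Nat.mul_le_mul_right (Nat.card ↥(A ⊓ MulAction.stabilizer M24 q)) h16]

theorem not_invariant_seven {x : GolayPt} {H : Subgroup M24}
    (hx : H ≤ MulAction.stabilizer M24 x) (hc : Nat.card H = 40320) {Y : Finset GolayPt}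
    (hY : ∀ h ∈ H, ∀ y ∈ Y, h • y ∈ Y) (h7 : Y.card = 7) (hxY : x ∉ Y) :
    insert x Y ∈ octads := by
  by_contra hno
  have hiff : ∀ (h : H) (y : GolayPt),
      MulAction.toPerm (h : M24) y ∈ Y ↔ y ∈ Y := fun h y => by
    refine ⟨fun hy => ?_, hY h h.2 y⟩
    have := hY _ (inv_mem h.2) _ hy
    rwa [MulAction.toPerm_apply, inv_smul_smul] at this
  let f : H →* Equiv.Perm ↥Y :=
    { toFun := fun h => (MulAction.toPerm (h : M24)).subtypePerm (hiff h)
      map_one' := Equiv.ext fun y => Subtype.ext (one_smul M24 (y : GolayPt))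
      map_mul' := fun a b => Equiv.ext fun y =>
        Subtype.ext (mul_smul (a : M24) (b : M24) (y : GolayPt)) }
  have hker : Nat.card f.ker ≤ 3 := by
    rw [← Subgroup.card_map_of_injective (K := f.ker) (f := H.subtype) H.subtype_injective]
    refine card_pointwise_le (T := insert x Y)
      (by rw [Finset.card_insert_of_notMem hxY, h7]) hno ?_
    rintro _ ⟨k, hk, rfl⟩ t ht
    rcases Finset.mem_insert.1 ht with rfl | ht
    · exact hx k.2
    · exact congrArg (fun σ : Equiv.Perm ↥Y => ((σ ⟨t, ht⟩ : ↥Y) : GolayPt)) hk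
  have hrange : Nat.card f.range ≤ 5040 := by
    refine (Nat.card_le_card_of_injective _ Subtype.val_injective).trans (le_of_eq ?_)
    rw [Nat.card_perm, Nat.card_eq_fintype_card, Fintype.card_coe, h7]
    decide
  have h := Subgroup.card_mul_index f.ker
  rw [Subgroup.index_ker, hc] at h
  nlinarith [Nat.mul_le_mul hker hrange]

theorem card_point_octad_le {x : GolayPt} {O : Finset GolayPt} (hO : O ∈ octads) :
    Nat.card ↥(MulAction.stabilizer M24 O ⊓ MulAction.stabilizer M24 x) ≤
      if x ∈ O then 40320 else 20160 := by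
  have hmul := card_subOrb_mul (MulAction.stabilizer M24 O) x
  rw [card_stabilizer_octad hO] at hmul
  by_cases hx : x ∈ O
  · rw [if_pos hx]
    have h8 : 8 ≤ (subOrb (MulAction.stabilizer M24 O) x).card := by
      rw [← card_eq_of_mem_octads hO]
      refine Finset.card_le_card fun z hz => ?_
      obtain ⟨a, ha, hne⟩ : ∃ a ∈ O, a ≠ x :=
        Finset.exists_mem_ne (by rw [card_eq_of_mem_octads hO]; norm_num) x
      obtain ⟨b, hb, hne'⟩ : ∃ b ∈ O, b ≠ z :=
        Finset.exists_mem_ne (by rw [card_eq_of_mem_octads hO]; norm_num) z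
      obtain ⟨g, hg, hgx, -⟩ := exists_M24_octad_pair hO hO hx ha (Ne.symm hne) hz hb (Ne.symm hne')
      exact mem_subOrb.2 ⟨g, hg, hgx⟩
    nlinarith [Nat.mul_le_mul_right
      (Nat.card ↥(MulAction.stabilizer M24 O ⊓ MulAction.stabilizer M24 x)) h8]
  · rw [if_neg hx]
    have h16 : 16 ≤ (subOrb (MulAction.stabilizer M24 O) x).card := by
      have h := Finset.card_le_card (show Oᶜ ⊆ subOrb (MulAction.stabilizer M24 O) x from
        fun z hz => by
          obtain ⟨g, hg, hgz⟩ := octadKernel_transitive hO hx (Finset.mem_compl.1 hz)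
          exact mem_subOrb.2 ⟨⟨g, (mem_octadKernel.1 hg).1⟩,
            MulAction.mem_stabilizer_iff.2 (mem_octadGroup.1 (octadKernel_le O hg)).2, hgz⟩)
      rwa [Finset.card_compl, card_eq_of_mem_octads hO, card_golayPt] at h
    nlinarith [Nat.mul_le_mul_right
      (Nat.card ↥(MulAction.stabilizer M24 O ⊓ MulAction.stabilizer M24 x)) h16]

theorem mem_stabilizer_of_invariant {H : Subgroup M24} {S : Finset GolayPt}
    (hS : ∀ h ∈ H, ∀ y ∈ S, h • y ∈ S) : H ≤ MulAction.stabilizer M24 S := fun h hh =>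
  MulAction.mem_stabilizer_iff.2 (Finset.eq_of_subset_of_card_le
    (fun y hy => by obtain ⟨z, hz, rfl⟩ := Finset.mem_smul_finset.1 hy; exact hS h hh z hz)
    (Finset.card_smul_finset h S).ge)

theorem not_orbit_eight {x b : GolayPt} {H : Subgroup M24}
    (hx : H ≤ MulAction.stabilizer M24 x) (hc : Nat.card H = 40320) (hxb : x ∉ subOrb H b)
    (h8 : (subOrb H b).card = 8) : False := by
  set B := subOrb H b with hB
  have hinv : ∀ h ∈ H, ∀ y ∈ B, h • y ∈ B := fun h hh y hy => smul_mem_subOrb hh hy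
  have hBstab : ∀ h ∈ H, h • B = B := fun h hh =>
    MulAction.mem_stabilizer_iff.1 (mem_stabilizer_of_invariant hinv hh)
  have hBoct : B ∉ octads := fun hO => by
    have h := card_le_of_le (le_inf (mem_stabilizer_of_invariant hinv) hx)
    have h' := card_point_octad_le (x := x) hO
    rw [if_neg hxb] at h'
    omega
  -- no octad through `x` meets the orbit in five points
  set Q := B.powerset.filter fun S => ∃ o ∈ octads, x ∈ o ∧ S = o ∩ B ∧ 5 ≤ S.card with hQ
  have hQmem : ∀ {S}, S ∈ Q → ∃ o ∈ octads, x ∈ o ∧ S = o ∩ B ∧ 5 ≤ S.card := fun hS =>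
    (Finset.mem_filter.1 hS).2
  have hQsub : ∀ {S}, S ∈ Q → S ⊆ B := fun hS =>
    Finset.mem_powerset.1 (Finset.mem_filter.1 hS).1
  have hQeq : ∀ S ∈ Q, ∀ T ∈ Q, 4 ≤ (S ∩ T).card → S = T := by
    intro S hS T hT h4
    obtain ⟨o, ho, hxo, rfl, -⟩ := hQmem hS
    obtain ⟨o', ho', hxo', rfl, -⟩ := hQmem hT
    rw [octad_unique ho ho' ?_]
    have hsub : insert x ((o ∩ B) ∩ (o' ∩ B)) ⊆ o ∩ o' := by
      intro y hy
      simp only [Finset.mem_insert, Finset.mem_inter] at hy ⊢
      rcases hy with rfl | hy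
      · exact ⟨hxo, hxo'⟩
      · exact ⟨hy.1.1, hy.2.1⟩
    have h := Finset.card_le_card hsub
    rw [Finset.card_insert_of_notMem (fun h' => hxb
      (Finset.mem_inter.1 (Finset.mem_inter.1 h').1).2)] at h
    omega
  have hQinv : ∀ h ∈ H, ∀ S ∈ Q, h • S ∈ Q := by
    intro h hh S hS
    obtain ⟨o, ho, hxo, rfl, h5⟩ := hQmem hS
    refine Finset.mem_filter.2 ⟨Finset.mem_powerset.2 fun y hy => ?_, h • o,
      CfsgLib.Golay.smul_mem_octads h.2 ho, ?_, ?_, by rwa [Finset.card_smul_finset]⟩
    · obtain ⟨z, hz, rfl⟩ := Finset.mem_smul_finset.1 hy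
      exact hinv h hh z (Finset.mem_inter.1 hz).2
    · have := Finset.smul_mem_smul_finset (a := h) hxo
      rwa [show h • x = x from hx hh] at this
    · rw [Finset.smul_finset_inter, hBstab h hh]
  have htrans : ∀ y ∈ B, ∀ z ∈ B, ∃ h ∈ H, h • y = z := fun y hy z hz =>
    mem_subOrb.1 (by rw [subOrb_eq_of_mem hy]; exact hz)
  have h6 : ∀ S ∈ Q, S.card = 5 := by
    intro S hS
    obtain ⟨o, ho, hxo, hSo, h5⟩ := hQmem hS
    by_contra hne
    have hS7 : S.card ≤ 7 := by
      have h := Finset.card_le_card (show S ⊆ o.erase x from fun y hy => Finset.mem_erase.2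
        ⟨fun e => hxb (e ▸ hQsub hS hy), (Finset.mem_inter.1 (hSo ▸ hy)).1⟩)
      rw [Finset.card_erase_of_mem hxo, card_eq_of_mem_octads ho] at h
      omega
    have hfix : ∀ h ∈ H, h • S = S := by
      intro h hh
      refine hQeq _ (hQinv h hh S hS) S hS ?_
      have hu := Finset.card_union_add_card_inter (h • S) S
      have hle := Finset.card_le_card (Finset.union_subset (hQsub (hQinv h hh S hS)) (hQsub hS))
      rw [Finset.card_smul_finset] at hu
      omega
    obtain ⟨y, hy⟩ := Finset.card_pos.1 (show 0 < S.card by omega)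
    obtain ⟨z, hz, hzS⟩ := Finset.exists_mem_notMem_of_card_lt_card (s := S) (t := B) (by omega)
    obtain ⟨h, hh, rfl⟩ := htrans y (hQsub hS hy) z hz
    exact hzS (hfix h hh ▸ Finset.smul_mem_smul_finset hy)
  have hQ0 : Q = ∅ := by
    by_contra hne
    have hpos : 0 < Q.card := Finset.card_pos.2 (Finset.nonempty_iff_ne_empty.2 hne)
    have h70 : 5 * Q.card ≤ 70 := by
      have hd : (Q : Set (Finset GolayPt)).PairwiseDisjoint (Finset.powersetCard 4) := by
        intro S hS T hT hST
        refine Finset.disjoint_left.2 fun U hU hU' => hST (hQeq S hS T hT ?_)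
        rw [Finset.mem_powersetCard] at hU hU'
        exact hU.2 ▸ Finset.card_le_card (Finset.subset_inter hU.1 hU'.1)
      have h := Finset.card_le_card (show Q.biUnion (Finset.powersetCard 4) ⊆ B.powersetCard 4 from
        Finset.biUnion_subset.2 fun S hS => Finset.powersetCard_mono (hQsub hS))
      rw [Finset.card_biUnion hd, Finset.card_powersetCard, h8, show Nat.choose 8 4 = 70 by decide,
        Finset.sum_congr rfl (fun S hS => by rw [Finset.card_powersetCard, h6 S hS])] at h
      rw [Finset.sum_const, smul_eq_mul, show Nat.choose 5 4 = 5 by decide] at h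
      omega
    have h7 : Q.card % 7 = 0 := by
      have : Fact (Nat.Prime 7) := ⟨by norm_num⟩
      obtain ⟨g, hgH, hg⟩ := exists_orderOf (H := H) 7 (by rw [hc]; norm_num)
      have hgp : g ^ 7 = 1 := hg ▸ pow_orderOf_eq_one g
      have h := fixed_modEq hgp Q fun S hS => hQinv g hgH S hS
      rw [Finset.filter_eq_empty_iff.2 fun S hS hfix => ?_, Finset.card_empty] at h
      · exact h.symm
      have h' := fixed_modEq hgp S fun y hy => hfix ▸ Finset.smul_mem_smul_finset hy
      have h3 := fixed_card (p := 7) (r := 3) (Or.inr (Or.inl ⟨rfl, rfl⟩)) hg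
      have hle := Finset.card_le_card (Finset.filter_subset_filter (fun y => g • y = y)
        (Finset.subset_univ S))
      rw [h3] at hle
      rw [Nat.ModEq, h6 S hS] at h'
      omega
    have h8' : 8 ∣ 5 * Q.card := by
      have hsum := Finset.sum_card_bipartiteAbove_eq_sum_card_bipartiteBelow
        (fun (S : Finset GolayPt) (y : GolayPt) => y ∈ S) (s := Q) (t := B)
      rw [Finset.sum_congr rfl (g := fun _ => 5) (fun S hS => ?_), Finset.sum_const, smul_eq_mul,
        Finset.sum_congr rfl (g := fun _ => (Q.filter fun S => b ∈ S).card) (fun y hy => ?_),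
        Finset.sum_const, smul_eq_mul, h8] at hsum
      · exact ⟨(Q.filter fun S => b ∈ S).card, by rw [← hsum, mul_comm]⟩
      · obtain ⟨h, hh, hby⟩ := htrans b (self_mem_subOrb H b) y hy
        refine (Finset.card_bij (fun S _ => h • S) (fun S hS => ?_)
          (fun S _ T _ e => MulAction.injective h e) fun S hS => ?_).symm
        · rw [Finset.mem_filter] at hS
          exact Finset.mem_filter.2 ⟨hQinv h hh S hS.1, hby ▸ Finset.smul_mem_smul_finset hS.2⟩
        · simp only [Finset.bipartiteBelow, Finset.mem_filter] at hS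
          refine ⟨h⁻¹ • S, Finset.mem_filter.2 ⟨hQinv _ (inv_mem hh) S hS.1, ?_⟩,
            smul_inv_smul h S⟩
          rw [← Finset.smul_mem_smul_finset_iff h, smul_inv_smul, hby]
          exact hS.2
      · rw [Finset.bipartiteAbove, ← h6 S hS]
        congr 1
        ext y
        simp only [Finset.mem_filter]
        exact ⟨And.right, fun hy => ⟨hQsub hS hy, hy⟩⟩
    omega
  have hxo : ∀ o ∈ octads, x ∈ o → (o ∩ B).card ≤ 4 := by
    intro o ho hxo
    by_contra h
    have : o ∩ B ∈ Q := Finset.mem_filter.2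
      ⟨Finset.mem_powerset.2 Finset.inter_subset_right, o, ho, hxo, rfl, by omega⟩
    rw [hQ0] at this
    exact absurd this (Finset.notMem_empty _)
  -- an octad meeting the orbit in exactly five points
  obtain ⟨O, hO, hO5⟩ : ∃ O ∈ octads, (O ∩ B).card = 5 := by
    by_contra hcon
    simp only [not_exists, not_and] at hcon
    have hoct : ∀ F : Finset GolayPt, ∃ O, F.card = 5 → O ∈ octads ∧ F ⊆ O := fun F => by
      by_cases hF : F.card = 5
      · exact ⟨_, fun _ => (exists_octad_above hF).exists.choose_spec⟩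
      · exact ⟨∅, fun h => absurd h hF⟩
    choose oct hoct using hoct
    have h := Finset.card_eq_sum_card_image oct (B.powersetCard 5)
    rw [Finset.card_powersetCard, h8, show Nat.choose 8 5 = 56 by decide] at h
    have h3 : 3 ∣ ∑ O ∈ (B.powersetCard 5).image oct,
        ((B.powersetCard 5).filter fun F => oct F = O).card := by
      refine Finset.dvd_sum fun O hOi => ?_
      obtain ⟨F, hF, rfl⟩ := Finset.mem_image.1 hOi
      obtain ⟨hFB, hF5⟩ := Finset.mem_powersetCard.1 hF
      obtain ⟨ho, hFo⟩ := hoct F hF5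
      have hge := Finset.card_le_card (Finset.subset_inter hFo hFB)
      have hle : (oct F ∩ B).card ≠ 8 := fun e => hBoct (by
        have e1 := Finset.eq_of_subset_of_card_le (Finset.inter_subset_right (s₁ := oct F) (s₂ := B))
          (by omega)
        have e2 := Finset.eq_of_subset_of_card_le (Finset.inter_subset_left (s₁ := oct F) (s₂ := B))
          (by rw [card_eq_of_mem_octads ho]; omega)
        exact e1 ▸ e2.symm ▸ ho)
      have hfib : (B.powersetCard 5).filter (fun G => oct G = oct F) =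
          (oct F ∩ B).powersetCard 5 := by
        ext G
        simp only [Finset.mem_filter, Finset.mem_powersetCard, Finset.subset_inter_iff]
        constructor
        · rintro ⟨⟨hGB, hG5⟩, e⟩
          exact ⟨⟨e ▸ (hoct G hG5).2, hGB⟩, hG5⟩
        · rintro ⟨⟨hGo, hGB⟩, hG5⟩
          exact ⟨⟨hGB, hG5⟩, (exists_octad_above hG5).unique (hoct G hG5) ⟨ho, hGo⟩⟩
      rw [hfib, Finset.card_powersetCard]
      have hcon' := hcon (oct F) ho
      have hle' := Finset.card_le_card (Finset.inter_subset_right (s₁ := oct F) (s₂ := B))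
      rcases (show (oct F ∩ B).card = 6 ∨ (oct F ∩ B).card = 7 by omega) with e | e <;>
        rw [e] <;> decide
    rw [← h] at h3
    norm_num at h3
  set F := O ∩ B with hF
  have hxO : x ∉ O := fun h => by
    have := hxo O hO h
    rw [← hF] at this
    omega
  have hFB : F ⊆ B := Finset.inter_subset_right
  have hxF : x ∉ F := fun h => hxb (hFB h)
  have hex : ∀ i : F, ∃ o, o ∈ octads ∧ x ∈ o ∧ o ∩ B = F.erase i := fun i => by
    have hc5 : (insert x (F.erase (i : GolayPt))).card = 5 := by
      rw [Finset.card_insert_of_notMem (fun h => hxF (Finset.mem_of_mem_erase h)),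
        Finset.card_erase_of_mem i.2, hO5]
    obtain ⟨o, ⟨ho, hsub⟩, -⟩ := exists_octad_above hc5
    have hxo' : x ∈ o := hsub (Finset.mem_insert_self _ _)
    refine ⟨o, ho, hxo', (Finset.eq_of_subset_of_card_le (fun y hy => Finset.mem_inter.2
      ⟨hsub (Finset.mem_insert_of_mem hy), hFB (Finset.mem_of_mem_erase hy)⟩) ?_).symm⟩
    rw [Finset.card_erase_of_mem i.2, hO5]
    exact hxo o ho hxo'
  choose o ho hxo' hoB using hex
  let U : F → Finset GolayPt := fun i => o i \ insert x B
  have hU : ∀ i, (U i).card = 3 := fun i => by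
    have e : o i ∩ insert x B = insert x (F.erase (i : GolayPt)) := by
      rw [Finset.inter_insert_of_mem (hxo' i), hoB]
    have := Finset.card_sdiff_add_card_inter (o i) (insert x B)
    rw [e, card_eq_of_mem_octads (ho i),
      Finset.card_insert_of_notMem (fun h => hxF (Finset.mem_of_mem_erase h)),
      Finset.card_erase_of_mem i.2, hO5] at this
    show (o i \ insert x B).card = 3
    omega
  have hd : ∀ i j : F, i ≠ j → Disjoint (U i) (U j) := fun i j hij => by
    refine Finset.disjoint_left.2 fun p hp hp' => ?_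
    simp only [U, Finset.mem_sdiff, Finset.mem_insert, not_or] at hp hp'
    have hsub : insert p (insert x ((F.erase (i : GolayPt)).erase j)) ⊆ o i ∩ o j := by
      intro y hy
      simp only [Finset.mem_insert, Finset.mem_erase] at hy
      rcases hy with rfl | rfl | ⟨hyj, hyi, hyF⟩
      · exact Finset.mem_inter.2 ⟨hp.1, hp'.1⟩
      · exact Finset.mem_inter.2 ⟨hxo' i, hxo' j⟩
      · refine Finset.mem_inter.2 ⟨?_, ?_⟩
        · exact (Finset.mem_inter.1 (show y ∈ o i ∩ B by
            rw [hoB]; exact Finset.mem_erase.2 ⟨hyi, hyF⟩)).1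
        · exact (Finset.mem_inter.1 (show y ∈ o j ∩ B by
            rw [hoB]; exact Finset.mem_erase.2 ⟨hyj, hyF⟩)).1
    have hcard := Finset.card_le_card hsub
    rw [Finset.card_insert_of_notMem (fun h => ?_), Finset.card_insert_of_notMem
        (fun h => hxF (Finset.mem_of_mem_erase (Finset.mem_of_mem_erase h))),
      Finset.card_erase_of_mem (Finset.mem_erase.2 ⟨fun e => hij (Subtype.ext e).symm, j.2⟩),
      Finset.card_erase_of_mem i.2, hO5] at hcard
    · have e := octad_unique (ho i) (ho j) hcard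
      have h1 : (i : GolayPt) ∈ o i ∩ B := by
        rw [e, hoB]
        exact Finset.mem_erase.2 ⟨fun e' => hij (Subtype.ext e'), i.2⟩
      rw [hoB] at h1
      exact (Finset.mem_erase.1 h1).1 rfl
    · rcases Finset.mem_insert.1 h with h | h
      · exact hp.2.1 h
      · exact hp.2.2 (hFB (Finset.mem_of_mem_erase (Finset.mem_of_mem_erase h)))
  have hcover : Finset.univ.biUnion U = (insert x B)ᶜ := by
    refine Finset.eq_of_subset_of_card_le (Finset.biUnion_subset.2 fun i _ y hy =>
      Finset.mem_compl.2 (Finset.mem_sdiff.1 hy).2) ?_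
    rw [Finset.card_biUnion fun i _ j _ hij => hd i j hij, Finset.sum_congr rfl fun i _ => hU i,
      Finset.sum_const, Finset.card_univ, Fintype.card_coe, hO5, Finset.card_compl,
      Finset.card_insert_of_notMem hxb, h8, card_golayPt]
    norm_num
  obtain ⟨p, hpO, hpB⟩ : ∃ p ∈ O, p ∉ B := by
    by_contra hcon
    simp only [not_exists, not_and, not_not] at hcon
    exact hBoct (Finset.eq_of_subset_of_card_le hcon
      (by rw [card_eq_of_mem_octads hO, h8]) ▸ hO)
  have hp : p ∈ Finset.univ.biUnion U := by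
    rw [hcover, Finset.mem_compl, Finset.mem_insert, not_or]
    exact ⟨fun e => hxO (e ▸ hpO), hpB⟩
  obtain ⟨i, -, hi⟩ := Finset.mem_biUnion.1 hp
  have hsub : insert p (F.erase (i : GolayPt)) ⊆ O ∩ o i := by
    intro y hy
    rcases Finset.mem_insert.1 hy with rfl | hy
    · exact Finset.mem_inter.2 ⟨hpO, (Finset.mem_sdiff.1 hi).1⟩
    · refine Finset.mem_inter.2 ⟨(Finset.mem_inter.1 (Finset.mem_of_mem_erase hy)).1, ?_⟩
      exact (Finset.mem_inter.1 (show y ∈ o i ∩ B by rw [hoB]; exact hy)).1
  have hcard := Finset.card_le_card hsub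
  rw [Finset.card_insert_of_notMem (fun h => hpB (hFB (Finset.mem_of_mem_erase h))),
    Finset.card_erase_of_mem i.2, hO5] at hcard
  exact hxO (octad_unique hO (ho i) hcard ▸ hxo' i)

theorem card_point_duad_le {x : GolayPt} {s : Finset GolayPt} (hs : s.card = 2) (hxs : x ∉ s) :
    Nat.card ↥(MulAction.stabilizer M24 s ⊓ MulAction.stabilizer M24 x) ≤ 40320 := by
  obtain ⟨a, b, hab, rfl⟩ := Finset.card_eq_two.1 hs
  simp only [Finset.mem_insert, Finset.mem_singleton, not_or] at hxs
  set K := MulAction.stabilizer M24 ({a, b} : Finset GolayPt) ⊓ MulAction.stabilizer M24 x with hK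
  have hmul := card_subOrb_mul K a
  have hsub : subOrb K a ⊆ {a, b} := fun z hz => by
    obtain ⟨h, hh, rfl⟩ := mem_subOrb.1 hz
    have := Finset.smul_mem_smul_finset (a := h) (Finset.mem_insert_self a ({b} : Finset GolayPt))
    rwa [show h • ({a, b} : Finset GolayPt) = {a, b} from hh.1] at this
  have h2 := Finset.card_le_card hsub
  rw [Finset.card_pair hab] at h2
  have hle : Nat.card ↥(K ⊓ MulAction.stabilizer M24 a) ≤ 20160 := by
    rw [← card_stabilizer_three hab hxs.1 hxs.2]
    refine card_le_of_le fun h hh => ?_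
    have ha : h • a = a := hh.2
    have hb : h • b ∈ ({a, b} : Finset GolayPt) := by
      have := Finset.smul_mem_smul_finset (a := h)
        (Finset.mem_insert_of_mem (Finset.mem_singleton_self b) : b ∈ ({a, b} : Finset GolayPt))
      rwa [show h • ({a, b} : Finset GolayPt) = {a, b} from hh.1.1] at this
    simp only [Finset.mem_insert, Finset.mem_singleton] at hb
    refine ⟨⟨ha, hb.resolve_left fun e => hab ?_⟩, hh.1.2⟩
    exact MulAction.injective h (ha.trans e.symm)
  nlinarith [Nat.mul_le_mul h2 hle]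

/-- The subgroups of index 253 of a point stabiliser. -/
theorem index_253 {x : GolayPt} {H : Subgroup M24} (hx : H ≤ MulAction.stabilizer M24 x)
    (hc : Nat.card H = 40320) :
    (∃ s : Finset GolayPt, s.card = 2 ∧ x ∉ s ∧
      H = MulAction.stabilizer M24 s ⊓ MulAction.stabilizer M24 x) ∨
    ∃ o ∈ octads, x ∈ o ∧ H = MulAction.stabilizer M24 o ⊓ MulAction.stabilizer M24 x := by
  have hxorb : ∀ y, y ≠ x → x ∉ subOrb H y := fun y hy h => by
    obtain ⟨k, hk, e⟩ := mem_subOrb.1 h
    exact hy (MulAction.injective k (e.trans (hx hk).symm))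
  have hduad : ∀ s : Finset GolayPt, s.card = 2 → x ∉ s → (∀ h ∈ H, ∀ y ∈ s, h • y ∈ s) →
      ∃ s : Finset GolayPt, s.card = 2 ∧ x ∉ s ∧
        H = MulAction.stabilizer M24 s ⊓ MulAction.stabilizer M24 x := fun s hs hxs hinv =>
    ⟨s, hs, hxs, Subgroup.eq_of_le_of_card_ge (le_inf (mem_stabilizer_of_invariant hinv) hx)
      (by rw [hc]; exact card_point_duad_le hs hxs)⟩
  have : Fact (Nat.Prime 5) := ⟨by norm_num⟩
  have : Fact (Nat.Prime 7) := ⟨by norm_num⟩
  obtain ⟨g5, hg5H, hg5⟩ := exists_orderOf (H := H) 5 (by rw [hc]; norm_num)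
  obtain ⟨g7, hg7H, hg7⟩ := exists_orderOf (H := H) 7 (by rw [hc]; norm_num)
  have hfix : ∀ (g : M24) (p r : ℕ) [Fact p.Prime], g ∈ H → orderOf g = p →
      (p = 5 ∧ r = 4 ∨ p = 7 ∧ r = 3 ∨ p = 11 ∧ r = 2) → ∀ (S : Finset GolayPt), x ∉ S →
      (S.filter fun y => g • y = y).card + 1 ≤ r := by
    intro g p r _ hg hord hpr S hxS
    have h3 := fixed_card hpr hord
    have hsub : insert x (S.filter fun y => g • y = y) ⊆ Finset.univ.filter fun y => g • y = y := by
      intro y hy
      refine Finset.mem_filter.2 ⟨Finset.mem_univ _, ?_⟩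
      rcases Finset.mem_insert.1 hy with rfl | hy
      · exact hx hg
      · exact (Finset.mem_filter.1 hy).2
    have h := Finset.card_le_card hsub
    rw [h3, Finset.card_insert_of_notMem (fun h' => hxS (Finset.mem_filter.1 h').1)] at h
    exact h
  have hsize : ∀ y, y ≠ x → (subOrb H y).card = 1 ∨ (subOrb H y).card = 2 ∨
      (subOrb H y).card = 7 ∨ (subOrb H y).card = 8 ∨ (subOrb H y).card = 15 ∨
      (subOrb H y).card = 16 ∨ (subOrb H y).card = 21 := by
    intro y hy
    have hmod5 := fixed_modEq (hg5 ▸ pow_orderOf_eq_one g5) (subOrb H y)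
      fun z hz => smul_mem_subOrb hg5H hz
    have hmod7 := fixed_modEq (hg7 ▸ pow_orderOf_eq_one g7) (subOrb H y)
      fun z hz => smul_mem_subOrb hg7H hz
    have h5 := hfix g5 5 4 hg5H hg5 (Or.inl ⟨rfl, rfl⟩) _ (hxorb y hy)
    have h7 := hfix g7 7 3 hg7H hg7 (Or.inr (Or.inl ⟨rfl, rfl⟩)) _ (hxorb y hy)
    have hd : (subOrb H y).card ∣ 40320 := hc ▸ card_subOrb_dvd H y
    have hle : (subOrb H y).card ≤ 23 := by
      have h := Finset.card_le_card (show subOrb H y ⊆ (Finset.univ : Finset GolayPt).erase x from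
        fun z hz => Finset.mem_erase.2 ⟨fun e => hxorb y hy (e ▸ hz), Finset.mem_univ _⟩)
      rwa [Finset.card_erase_of_mem (Finset.mem_univ _), card_univ_golayPt] at h
    have hpos : 0 < (subOrb H y).card := Finset.card_pos.2 ⟨y, self_mem_subOrb H y⟩
    rw [Nat.ModEq] at hmod5 hmod7
    generalize (subOrb H y).card = n at *
    interval_cases n <;> omega
  by_cases h2 : ∃ y, y ≠ x ∧ (subOrb H y).card = 2
  · obtain ⟨y, hy, hy2⟩ := h2
    exact Or.inl (hduad _ hy2 (hxorb y hy) fun h hh z hz => smul_mem_subOrb hh hz)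
  by_cases h7 : ∃ y, y ≠ x ∧ (subOrb H y).card = 7
  · obtain ⟨y, hy, hy7⟩ := h7
    have hinv : ∀ h ∈ H, ∀ z ∈ insert x (subOrb H y), h • z ∈ insert x (subOrb H y) := by
      intro h hh z hz
      rcases Finset.mem_insert.1 hz with rfl | hz
      · exact Finset.mem_insert.2 (Or.inl (hx hh))
      · exact Finset.mem_insert_of_mem (smul_mem_subOrb hh hz)
    have ho := not_invariant_seven hx hc (fun h hh z hz => smul_mem_subOrb hh hz) hy7 (hxorb y hy)
    refine Or.inr ⟨_, ho, Finset.mem_insert_self _ _,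
      Subgroup.eq_of_le_of_card_ge (le_inf (mem_stabilizer_of_invariant hinv) hx) ?_⟩
    have h := card_point_octad_le (x := x) ho
    rw [if_pos (Finset.mem_insert_self _ _)] at h
    rw [hc]; exact h
  by_cases h8 : ∃ y, y ≠ x ∧ (subOrb H y).card = 8
  · obtain ⟨y, hy, hy8⟩ := h8
    exact (not_orbit_eight hx hc (hxorb y hy) hy8).elim
  simp only [not_exists, not_and] at h2 h7 h8
  set U := ((Finset.univ : Finset GolayPt).erase x).filter fun y => ∀ h ∈ H, h • y = y with hU
  have hUx : x ∉ U := fun h => (Finset.mem_erase.1 (Finset.mem_filter.1 h).1).1 rfl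
  have hUg : U.filter (fun y => g7 • y = y) = U :=
    Finset.filter_true_of_mem fun y hy => (Finset.mem_filter.1 hy).2 g7 hg7H
  have hU2 := hfix g7 7 3 hg7H hg7 (Or.inr (Or.inl ⟨rfl, rfl⟩)) U hUx
  rw [hUg] at hU2
  rcases (show U.card = 2 ∨ U.card ≤ 1 by omega) with hU' | hU'
  · refine Or.inl (hduad U hU' hUx fun h hh z hz => ?_)
    rw [(Finset.mem_filter.1 hz).2 h hh]
    exact hz
  exfalso
  have hbig : ∀ y, y ≠ x → y ∉ U → 15 ≤ (subOrb H y).card ∧ (subOrb H y).card ≤ 21 := by
    intro y hy hyU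
    have h1 : (subOrb H y).card ≠ 1 := fun e => hyU (Finset.mem_filter.2
      ⟨Finset.mem_erase.2 ⟨hy, Finset.mem_univ _⟩, fun h hh => Finset.card_le_one.1 e.le _
        (smul_mem_subOrb hh (self_mem_subOrb H y)) _ (self_mem_subOrb H y)⟩)
    have := hsize y hy
    have := h2 y hy
    have := h7 y hy
    have := h8 y hy
    omega
  obtain ⟨y, hyW, hyU⟩ := Finset.exists_mem_notMem_of_card_lt_card (s := U)
    (t := (Finset.univ : Finset GolayPt).erase x) (by
      rw [Finset.card_erase_of_mem (Finset.mem_univ _), card_univ_golayPt]; omega)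
  have hy := (Finset.mem_erase.1 hyW).1
  obtain ⟨hy15, hy21⟩ := hbig y hy hyU
  obtain ⟨z, hzW, hz⟩ := Finset.exists_mem_notMem_of_card_lt_card (s := U ∪ subOrb H y)
    (t := (Finset.univ : Finset GolayPt).erase x) (by
      rw [Finset.card_erase_of_mem (Finset.mem_univ _), card_univ_golayPt]
      have := Finset.card_union_le U (subOrb H y)
      omega)
  simp only [Finset.mem_union, not_or] at hz
  have hzx := (Finset.mem_erase.1 hzW).1
  obtain ⟨hz15, -⟩ := hbig z hzx hz.1
  have hdis : Disjoint (subOrb H y) (subOrb H z) := Finset.disjoint_left.2 fun w hw hw' =>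
    hz.2 ((subOrb_eq_of_mem hw).symm.trans (subOrb_eq_of_mem hw') ▸ self_mem_subOrb H z)
  have h := Finset.card_le_univ (subOrb H y ∪ subOrb H z)
  rw [Finset.card_union_of_disjoint hdis, card_golayPt] at h
  omega

/-- The subgroups of index 253 of `M23`. -/
theorem m23_index_253 (x : GolayPt) (H : Subgroup ↥(MulAction.stabilizer M24 x))
    (hH : H.index = 253) :
    (∃ s : Finset GolayPt, s.card = 2 ∧ x ∉ s ∧
      H = (MulAction.stabilizer M24 s).subgroupOf (MulAction.stabilizer M24 x)) ∨
    ∃ o ∈ octads, x ∈ o ∧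
      H = (MulAction.stabilizer M24 o).subgroupOf (MulAction.stabilizer M24 x) := by
  have hc := Subgroup.card_mul_index H
  rw [hH, card_stabilizer_point x, ← Subgroup.card_map_of_injective (K := H)
    (f := (MulAction.stabilizer M24 x).subtype) (Subgroup.subtype_injective _)] at hc
  have hback : ∀ K : Subgroup M24,
      H.map (MulAction.stabilizer M24 x).subtype = K ⊓ MulAction.stabilizer M24 x →
      H = K.subgroupOf (MulAction.stabilizer M24 x) := fun K e => by
    rw [← Subgroup.inf_subgroupOf_right, ← e]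
    exact (Subgroup.comap_map_eq_self_of_injective (Subgroup.subtype_injective _) H).symm
  rcases index_253 (Subgroup.map_subtype_le H) (by omega) with ⟨s, h1, h2, h3⟩ | ⟨o, h1, h2, h3⟩
  · exact Or.inl ⟨s, h1, h2, hback _ h3⟩
  · exact Or.inr ⟨o, h1, h2, hback _ h3⟩

end CfsgLib.GolayStructure
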