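/-
The bilinear form of an integer Gram matrix, for the frame count.
-/
import Cfsg.Agent.Lib.GolayStructure.FrameCount

set_option autoImplicit false

namespace CfsgLib.GolayStructure

open Matrix

/-- The bilinear form of a Gram matrix. -/
def gramForm (B : Matrix (Fin 24) (Fin 24) ℤ) :
    (Fin 24 → ℤ) →ₗ[ℤ] (Fin 24 → ℤ) →ₗ[ℤ] ℤ :=
  LinearMap.mk₂ ℤ (fun x y => x ⬝ᵥ (B *ᵥ y))
    (fun x y z => by simp [add_dotProduct])
    (fun c x y => smul_dotProduct c x (B *ᵥ y))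
    (fun x y z => by simp [mulVec_add, dotProduct_add])
    (fun c x y => by simp only [mulVec_smul, dotProduct_smul])

theorem gramForm_apply (B : Matrix (Fin 24) (Fin 24) ℤ) (x y : Fin 24 → ℤ) :
    gramForm B x y = x ⬝ᵥ (B *ᵥ y) := rfl

theorem gramForm_symm {B : Matrix (Fin 24) (Fin 24) ℤ} (h : B.IsSymm) (x y : Fin 24 → ℤ) :
    gramForm B x y = gramForm B y x := by
  rw [gramForm_apply, gramForm_apply, dotProduct_mulVec, ← mulVec_transpose, h.eq, dotProduct_comm]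

theorem gramForm_min {B : Matrix (Fin 24) (Fin 24) ℤ}
    (hpos : ∀ x : Fin 24 → ℤ, x ≠ 0 → 0 < x ⬝ᵥ (B *ᵥ x))
    (heven : ∀ x : Fin 24 → ℤ, (2 : ℤ) ∣ x ⬝ᵥ (B *ᵥ x))
    (h2 : ∀ x : Fin 24 → ℤ, x ⬝ᵥ (B *ᵥ x) ≠ 2) (x : Fin 24 → ℤ) (hx : x ≠ 0) :
    4 ≤ gramForm B x x := by
  obtain ⟨k, hk⟩ := heven x
  have := hpos x hx
  have := h2 x
  rw [gramForm_apply]
  omega

theorem gramForm_orth_card (B : Matrix (Fin 24) (Fin 24) ℤ) (T : Finset (Fin 24 → ℤ))
    (hpos : ∀ x ∈ T, 0 < gramForm B x x)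
    (horth : ∀ x ∈ T, ∀ y ∈ T, x ≠ y → gramForm B x y = 0) : T.card ≤ 24 := by
  have h : LinearIndependent ℤ (Subtype.val : ↥T → Fin 24 → ℤ) := by
    rw [Fintype.linearIndependent_iff]
    intro g hg i
    have := congrArg (gramForm B i.1) hg
    rw [map_sum, map_zero, Finset.sum_eq_single i] at this
    · rw [map_smul, smul_eq_mul, mul_eq_zero] at this
      exact this.resolve_right (hpos i.1 i.2).ne'
    · intro j _ hj
      rw [map_smul, horth i.1 i.2 j.1 j.2 (fun h => hj (Subtype.ext h.symm)), smul_zero]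
    · simp
  simpa using h.fintype_card_le_finrank

theorem zmod_two_eq_iff (x y : Fin 24 → ℤ) :
    (fun i => (x i : ZMod 2)) = (fun i => (y i : ZMod 2)) ↔ ∃ z, x - y = 2 • z := by
  constructor
  · intro h
    have hi : ∀ i, ∃ k, x i - y i = 2 * k := fun i => by
      have := congrFun h i
      exact (ZMod.intCast_eq_intCast_iff_dvd_sub (y i) (x i) 2).1 this.symm
    choose k hk using hi
    exact ⟨k, funext fun i => by simp [Pi.sub_apply, hk i]⟩
  · rintro ⟨z, hz⟩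
    funext i
    refine ((ZMod.intCast_eq_intCast_iff_dvd_sub (y i) (x i) 2).2 ⟨z i, ?_⟩).symm
    simpa using congrFun hz i

theorem exists_two_smul_iff (x y : Fin 24 → ℤ) :
    (∃ z, x - y = 2 • z) ↔ ∀ i, (2 : ℤ) ∣ (x - y) i := by
  constructor
  · rintro ⟨z, hz⟩ i; exact ⟨z i, by simpa using congrFun hz i⟩
  · intro h; choose k hk using h; exact ⟨k, funext fun i => by simp [hk i]⟩

end CfsgLib.GolayStructure
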