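/-
A systematic encoding of the length-12 ternary code on the 4 x 3 array.
-/
import Cfsg.Prelude.Def_SporadicCombinatorics

set_option autoImplicit false

namespace CfsgLib.GolayStructure.Ternary

open Cfsg

/-- Six generating words (systematic on positions 0, 1, 2, 3, 4, 6 of the array). -/
def rows : List (List ℕ) :=
  [[1,0,0,0,0,1,0,0,1,1,1,2], [0,1,0,0,0,1,0,2,2,2,0,2], [0,0,1,0,0,1,0,1,0,2,1,1],
   [0,0,0,1,0,2,0,2,1,2,1,0], [0,0,0,0,1,2,0,1,2,0,1,2], [0,0,0,0,0,0,1,1,1,2,2,2]]

/-- The information positions. -/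
def infoPos : List ℕ := [0, 1, 2, 3, 4, 6]

/-- Number of a position. -/
def num (p : ArrayPt) : ℕ := 3 * p.1.val + p.2.val

/-- Position of a number. -/
def pos (j : ℕ) : ArrayPt := (Fin.ofNat 4 (j / 3), (Fin.ofNat 3 j : Fin 3))

theorem num_lt : ∀ p : ArrayPt, num p < 12 := by decide
theorem pos_num : ∀ p : ArrayPt, pos (num p) = p := by decide

theorem num_injective : Function.Injective num := fun p q h => by
  rw [← pos_num p, h, pos_num q]

/-- The word with prescribed list of entries. -/
def ofList (l : List ℕ) : ArrayPt → ZMod 3 := fun p => (l.getD (num p) 0 : ℕ)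

/-- The `k`-th generating word. -/
def row (k : Fin 6) : ArrayPt → ZMod 3 := ofList (rows.getD k.val [])

/-- The `k`-th information position. -/
def info (k : Fin 6) : ArrayPt := pos (infoPos.getD k.val 0)

/-- The word with given information symbols. -/
def combine (c : Fin 6 → ZMod 3) : ArrayPt → ZMod 3 := ∑ k, c k • row k

theorem combine_apply (c : Fin 6 → ZMod 3) (p : ArrayPt) :
    combine c p = ∑ k, c k * row k p := by
  simp [combine, Finset.sum_apply]

theorem mem_tetracode_iff (t : Fin 4 → ZMod 3) :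
    t ∈ tetracode ↔ ∃ a b : ZMod 3, ![b, a, a + b, a + 2 * b] = t := by
  rw [tetracode, Submodule.mem_span_pair]
  have e : ∀ a b : ZMod 3, a • ![(0 : ZMod 3), 1, 1, 1] + b • ![1, 0, 1, 2]
      = ![b, a, a + b, a + 2 * b] := by decide
  simp only [e]

theorem mem_code_iff (x : ArrayPt → ZMod 3) :
    x ∈ ternaryGolayCode ↔ ∃ s : ZMod 3, (∀ i : Fin 4, x (i, 0) + x (i, 1) + x (i, 2) = -s) ∧
      ∀ a b : ZMod 3, x (0, b) + x (1, a) + x (2, a + b) + x (3, a + 2 * b) = s := by
  show IsTernaryGolayWord x ↔ _
  have hs : ∀ i : Fin 4, ∑ r : ZMod 3, x (i, r) = x (i, 0) + x (i, 1) + x (i, 2) := fun i =>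
    Fin.sum_univ_three _
  simp only [IsTernaryGolayWord, hs, Fin.sum_univ_four, mem_tetracode_iff]
  constructor
  · rintro ⟨s, h1, h2⟩
    exact ⟨s, h1, fun a b => by simpa using h2 _ ⟨a, b, rfl⟩⟩
  · rintro ⟨s, h1, h2⟩
    refine ⟨s, h1, ?_⟩
    rintro t ⟨a, b, rfl⟩
    simpa using h2 a b

instance decidableMemTernary : DecidablePred (· ∈ ternaryGolayCode) := fun x =>
  decidable_of_iff _ (mem_code_iff x).symm

theorem row_mem : ∀ k : Fin 6, row k ∈ ternaryGolayCode := by decide +kernel

theorem combine_mem (c : Fin 6 → ZMod 3) : combine c ∈ ternaryGolayCode :=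
  Submodule.sum_mem _ fun k _ => Submodule.smul_mem _ _ (row_mem k)

theorem row_info : ∀ k l : Fin 6, row k (info l) = if k = l then 1 else 0 := by decide +kernel

theorem combine_info (c : Fin 6 → ZMod 3) (l : Fin 6) : combine c (info l) = c l := by
  simp [combine_apply, row_info]

theorem combine_injective : Function.Injective combine := fun c d h =>
  funext fun l => by rw [← combine_info c l, ← combine_info d l, h]

theorem eq_zero_of_info_zero (y : ArrayPt → ZMod 3) (hy : y ∈ ternaryGolayCode)
    (h : ∀ k, y (info k) = 0) : y = 0 := by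
  obtain ⟨s, hc, ht⟩ := (mem_code_iff y).1 hy
  have h00 : y (0, 0) = 0 := h 0
  have h01 : y (0, 1) = 0 := h 1
  have h02 : y (0, 2) = 0 := h 2
  have h10 : y (1, 0) = 0 := h 3
  have h11 : y (1, 1) = 0 := h 4
  have h20 : y (2, 0) = 0 := h 5
  have hs : s = 0 := by
    have := hc 0
    rw [h00, h01, h02] at this
    simpa using this.symm
  subst hs
  have h12 : y (1, 2) = 0 := by
    have := hc 1
    rw [h10, h11] at this
    simpa using this
  have p1 : (0 : ZMod 3) + 1 = 1 := rfl
  have q : ∀ u v : ZMod 3, u + v = 0 → u = 0 → v = 0 := fun u v e hu => by simpa [hu] using e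
  have h30 : y (3, 0) = 0 := by
    have := ht 0 0
    simpa [h00, h10, h20] using this
  have h31 : y (3, 2) = 0 := by
    have := ht 1 2
    rw [show (1 : ZMod 3) + 2 = 0 from rfl, show (1 : ZMod 3) + 2 * 2 = 2 from rfl, h02, h11, h20]
      at this
    simpa using this
  have h32 : y (3, 1) = 0 := by
    have := hc 3
    rw [h30, h31] at this
    simpa using this
  have h21 : y (2, 1) = 0 := by
    have := ht 1 0
    rw [show (1 : ZMod 3) + 0 = 1 from rfl, show (1 : ZMod 3) + 2 * 0 = 1 from rfl, h00, h11, h32]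
      at this
    simpa using this
  have h22 : y (2, 2) = 0 := by
    have := hc 2
    rw [h20, h21] at this
    simpa using this
  funext p
  obtain ⟨i, r⟩ := p
  fin_cases i <;> fin_cases r <;> assumption

theorem eq_combine {x : ArrayPt → ZMod 3} (hx : x ∈ ternaryGolayCode) :
    x = combine fun k => x (info k) := by
  rw [← sub_eq_zero]
  exact eq_zero_of_info_zero _ (Submodule.sub_mem _ hx (combine_mem _)) fun k => by
    simp [Pi.sub_apply, combine_info]

theorem mem_iff_combine (x : ArrayPt → ZMod 3) :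
    x ∈ ternaryGolayCode ↔ ∃ c, combine c = x :=
  ⟨fun hx => ⟨_, (eq_combine hx).symm⟩, by rintro ⟨c, rfl⟩; exact combine_mem c⟩

/-! ### A list model -/

/-- The entries of the code word numbered `n < 729`. -/
def entries (n : ℕ) : List ℕ :=
  (List.range 12).map fun j =>
    (((List.range 6).map fun k => n / 3 ^ k % 3 * (rows.getD k []).getD j 0).sum) % 3

/-- The code word numbered `n`. -/
def word (n : ℕ) : ArrayPt → ZMod 3 := ofList (entries n)

/-- Weight of the word numbered `n`. -/
def wt (n : ℕ) : ℕ := (entries n).countP fun a => a != 0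

theorem word_eq_combine (n : ℕ) :
    word n = combine fun k : Fin 6 => ((n / 3 ^ k.val % 3 : ℕ) : ZMod 3) := by
  funext p
  have hj := num_lt p
  simp only [word, ofList, entries, combine_apply, row]
  rw [List.getD_eq_getElem _ _ (by simpa using hj)]
  simp only [List.getElem_map, List.getElem_range, ZMod.natCast_mod]
  simp [List.range_succ, Fin.sum_univ_six, add_assoc]

theorem mem_iff_word (x : ArrayPt → ZMod 3) :
    x ∈ ternaryGolayCode ↔ ∃ n < 729, word n = x := by
  constructor
  · intro hx
    obtain ⟨c, rfl⟩ := (mem_iff_combine x).1 hx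
    refine ⟨(c 0).val + 3 * ((c 1).val + 3 * ((c 2).val + 3 * ((c 3).val + 3 * ((c 4).val +
      3 * (c 5).val)))), ?_, ?_⟩
    · have := ZMod.val_lt (c 0); have := ZMod.val_lt (c 1); have := ZMod.val_lt (c 2)
      have := ZMod.val_lt (c 3); have := ZMod.val_lt (c 4); have := ZMod.val_lt (c 5)
      omega
    · rw [word_eq_combine]
      congr 1
      funext k
      have := ZMod.val_lt (c 0); have := ZMod.val_lt (c 1); have := ZMod.val_lt (c 2)
      have := ZMod.val_lt (c 3); have := ZMod.val_lt (c 4); have := ZMod.val_lt (c 5)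
      refine (congrArg (Nat.cast : ℕ → ZMod 3) ?_).trans (ZMod.natCast_zmod_val (c k))
      fin_cases k <;> simp <;> omega
  · rintro ⟨n, -, rfl⟩
    rw [word_eq_combine]
    exact combine_mem _

theorem word_injOn : Set.InjOn word {n | n < 729} := by
  intro n hn m hm h
  rw [word_eq_combine, word_eq_combine] at h
  have hk : ∀ k : Fin 6, n / 3 ^ k.val % 3 = m / 3 ^ k.val % 3 := fun k => by
    have := congrArg ZMod.val (congrFun (combine_injective h) k)
    simpa [ZMod.val_natCast, Nat.mod_mod] using this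
  have h0 := hk 0; have h1 := hk 1; have h2 := hk 2; have h3 := hk 3; have h4 := hk 4
  have h5 := hk 5
  simp only [Set.mem_ofPred_eq] at hn hm
  simp at h0 h1 h2 h3 h4 h5
  omega

end CfsgLib.GolayStructure.Ternary
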