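/-
The 132 hexads of the length-12 ternary code as bit masks.
-/
import Cfsg.Agent.Lib.GolayStructure.Ternary

set_option autoImplicit false
set_option maxRecDepth 100000

namespace CfsgLib.GolayStructure.Ternary

open Cfsg

/-- The set of positions coded by a mask. -/
def unm (m : ℕ) : Finset ArrayPt := Finset.univ.filter fun p => m.testBit (num p) = true

/-- The number of the first twelve bits that are set. -/
def pc (m : ℕ) : ℕ := (List.range 12).countP m.testBit

/-- The mask of the support of the word numbered `n`. -/
def mask (n : ℕ) : ℕ :=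
  ((List.range 12).map fun j => if (entries n).getD j 0 != 0 then 2 ^ j else 0).sum

/-- The hexads. -/
def hexList : List ℕ :=
  [63, 222, 237, 243, 347, 366, 373, 413, 427, 438, 455, 504, 591, 630, 633, 667, 679, 700, 
    725, 746, 791, 813, 826, 860, 867, 910, 945, 969, 978, 996, 1117, 1127, 1146, 1175, 1198, 
    1209, 1227, 1268, 1295, 1331, 1340, 1366, 1385, 1434, 1445, 1484, 1489, 1506, 1566, 1579, 
    1589, 1619, 1644, 1677, 1714, 1734, 1752, 1761, 1817, 1830, 1861, 1866, 1904, 1923, 1940, 
    1960, 2135, 2155, 2172, 2191, 2229, 2234, 2265, 2278, 2334, 2343, 2361, 2381, 2418, 2451, 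
    2476, 2506, 2516, 2529, 2589, 2606, 2611, 2650, 2661, 2710, 2729, 2755, 2764, 2800, 2827, 
    2868, 2886, 2897, 2920, 2949, 2968, 2978, 3099, 3117, 3126, 3150, 3185, 3228, 3235, 3269, 
    3282, 3304, 3349, 3370, 3395, 3416, 3428, 3462, 3465, 3504, 3591, 3640, 3657, 3668, 3682, 
    3722, 3729, 3748, 3852, 3858, 3873, 4032]

/-- Check that a list is strictly increasing. -/
def increasing : List ℕ → Bool
  | [] => true
  | [_] => true
  | a :: b :: l => a.blt b && increasing (b :: l)

theorem mem_unm {m : ℕ} {p : ArrayPt} : p ∈ unm m ↔ m.testBit (num p) = true := by simp [unm]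

theorem num_pos : ∀ j < 12, num (pos j) = j := by decide

theorem unm_injOn {m n : ℕ} (hm : m < 4096) (hn : n < 4096) (h : unm m = unm n) : m = n := by
  apply Nat.eq_of_testBit_eq
  intro j
  rcases lt_or_ge j 12 with hj | hj
  · have := Finset.ext_iff.1 h (pos j)
    simp only [mem_unm, num_pos j hj] at this
    exact Bool.eq_iff_iff.2 this
  · have : 4096 ≤ 2 ^ j := le_trans (by norm_num) (Nat.pow_le_pow_right (by norm_num) hj)
    rw [Nat.testBit_lt_two_pow (by omega), Nat.testBit_lt_two_pow (by omega)]

theorem exists_unm (s : Finset ArrayPt) : ∃ m < 4096, unm m = s := by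
  have h : (Finset.range 4096).image unm = Finset.univ := by
    apply Finset.eq_univ_of_card
    rw [Finset.card_image_of_injOn, Finset.card_range]
    · simp
    · exact fun m hm n hn h => unm_injOn (Finset.mem_range.1 hm) (Finset.mem_range.1 hn) h
  have := Finset.mem_univ s
  rw [← h] at this
  simpa using this

theorem unm_subset {m h : ℕ} (hm : m < 4096) : unm m ⊆ unm h ↔ m &&& h = m := by
  constructor
  · intro hs
    apply Nat.eq_of_testBit_eq
    intro j
    rw [Nat.testBit_and]
    rcases lt_or_ge j 12 with hj | hj
    · cases hmj : m.testBit j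
      · simp
      · have := hs (show pos j ∈ unm m by rw [mem_unm, num_pos j hj, hmj])
        rw [mem_unm, num_pos j hj] at this
        simp [this]
    · have : 4096 ≤ 2 ^ j := le_trans (by norm_num) (Nat.pow_le_pow_right (by norm_num) hj)
      rw [Nat.testBit_lt_two_pow (show m < 2 ^ j by omega)]
      simp
  · intro he p hp
    rw [mem_unm] at hp ⊢
    rw [← he, Nat.testBit_and, Bool.and_eq_true] at hp
    exact hp.2

theorem card_unm (m : ℕ) : (unm m).card = pc m := by
  have h : (unm m).image num = ((List.range 12).filter m.testBit).toFinset := by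
    ext j
    simp only [Finset.mem_image, mem_unm, List.mem_toFinset, List.mem_filter, List.mem_range]
    constructor
    · rintro ⟨p, hp, rfl⟩
      exact ⟨num_lt p, hp⟩
    · rintro ⟨hj, ht⟩
      exact ⟨pos j, by rwa [num_pos j hj], num_pos j hj⟩
  rw [← Finset.card_image_of_injective _ num_injective, h,
    List.toFinset_card_of_nodup (List.nodup_range.filter _), pc, List.countP_eq_length_filter]

theorem mask_bits : (List.range 729).all (fun n => (List.range 12).all fun j =>
    (mask n).testBit j == ((entries n).getD j 0 != 0)) = true := by decide +kernel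

theorem entries_lt : (List.range 729).all (fun n => (List.range 12).all fun j =>
    ((entries n).getD j 0).blt 3) = true := by decide +kernel

theorem wt_eq : (List.range 729).all (fun n => wt n == pc (mask n)) = true := by decide +kernel

theorem support_word (n : ℕ) (hn : n < 729) : ternarySupport (word n) = unm (mask n) := by
  ext p
  have h1 := List.all_eq_true.1 (List.all_eq_true.1 mask_bits n (List.mem_range.2 hn)) (num p)
    (List.mem_range.2 (num_lt p))
  have h2 := List.all_eq_true.1 (List.all_eq_true.1 entries_lt n (List.mem_range.2 hn)) (num p)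
    (List.mem_range.2 (num_lt p))
  rw [mem_unm, beq_iff_eq.1 h1, bne_iff_ne]
  simp only [Nat.blt_eq] at h2
  rw [ternarySupport, Finset.mem_filter_univ]
  simp only [word, ofList]
  generalize (entries n).getD (num p) 0 = a at h2 ⊢
  interval_cases a <;> decide

theorem card_support_word (n : ℕ) (hn : n < 729) : (ternarySupport (word n)).card = wt n := by
  rw [support_word n hn, card_unm, beq_iff_eq.1 (List.all_eq_true.1 wt_eq n (List.mem_range.2 hn))]

theorem mask_mem_check :
    ((((List.range 729).filter fun n => wt n == 6).map mask).all hexList.elem) = true := by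
  decide +kernel

theorem mask_mem (n : ℕ) (hn : n < 729) (h : wt n = 6) : mask n ∈ hexList :=
  List.elem_iff.1 (List.all_eq_true.1 mask_mem_check _
    (List.mem_map.2 ⟨n, List.mem_filter.2 ⟨List.mem_range.2 hn, beq_iff_eq.2 h⟩, rfl⟩))

theorem hexList_check : hexList.all (fun h => h.blt 4096 && pc h == 6 &&
    (((List.range 729).filter fun n => wt n == 6).map mask).elem h) = true := by
  decide +kernel

theorem hexList_mem (h : ℕ) (hh : h ∈ hexList) :
    h < 4096 ∧ pc h = 6 ∧ ∃ n < 729, wt n = 6 ∧ mask n = h := by
  have := List.all_eq_true.1 hexList_check h hh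
  simp only [Bool.and_eq_true, beq_iff_eq, Nat.blt_eq, List.elem_iff, List.mem_map,
    List.mem_filter, List.mem_range] at this
  obtain ⟨⟨h1, h2⟩, n, ⟨hn, hw⟩, hm⟩ := this
  exact ⟨h1, h2, n, hn, hw, hm⟩

theorem hexList_sorted : increasing hexList = true := by decide +kernel

theorem hexList_steiner_check : (((List.range 4096).filter fun m => pc m == 5).all fun m =>
    (hexList.countP fun h => m &&& h == m) == 1) = true := by decide +kernel

theorem hexList_steiner (m : ℕ) (hm : m < 4096) (h : pc m = 5) :
    (hexList.countP fun h => m &&& h == m) = 1 :=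
  beq_iff_eq.1 (List.all_eq_true.1 hexList_steiner_check m
    (List.mem_filter.2 ⟨List.mem_range.2 hm, beq_iff_eq.2 h⟩))

theorem hexList_nodup : hexList.Nodup := by
  have : ∀ l : List ℕ, increasing l = true → l.Pairwise (· < ·) := by
    intro l
    induction l with
    | nil => simp
    | cons a l ih =>
      intro h
      cases l with
      | nil => simp
      | cons b l =>
        simp only [increasing, Bool.and_eq_true] at h
        have hlt : a < b := by simpa [Nat.blt] using h.1
        refine List.pairwise_cons.2 ⟨?_, ih h.2⟩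
        intro c hc
        rcases List.mem_cons.1 hc with rfl | hc
        · exact hlt
        · exact hlt.trans (List.rel_of_pairwise_cons (ih h.2) hc)
  exact (this _ hexList_sorted).imp Nat.ne_of_lt

/-- The family of supports of weight 6, as in the statements. -/
theorem hexads_eq :
    {h : Finset ArrayPt | ∃ x ∈ ternaryGolayCode, ternarySupport x = h ∧ h.card = 6}
      = unm '' {m | m ∈ hexList} := by
  ext s
  simp only [Set.mem_ofPred_eq, Set.mem_image]
  constructor
  · rintro ⟨x, hx, rfl, hc⟩
    obtain ⟨n, hn, rfl⟩ := (mem_iff_word x).1 hx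
    rw [card_support_word n hn] at hc
    exact ⟨mask n, mask_mem n hn hc, (support_word n hn).symm⟩
  · rintro ⟨m, hm, rfl⟩
    obtain ⟨hlt, hpc, n, hn, -, rfl⟩ := hexList_mem m hm
    exact ⟨word n, (mem_iff_word _).2 ⟨n, hn, rfl⟩, support_word n hn,
      by rw [card_unm, hpc]⟩

theorem hexads_ncard : (unm '' {m | m ∈ hexList}).ncard = 132 := by
  have he : {m | m ∈ hexList} = (hexList.toFinset : Set ℕ) := by
    ext; simp
  rw [he, Set.InjOn.ncard_image, Set.ncard_coe_finset,
    List.toFinset_card_of_nodup hexList_nodup]
  · rfl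
  · intro m hm n hn h
    simp only [List.coe_toFinset, Set.mem_ofPred_eq] at hm hn
    exact unm_injOn (hexList_mem m hm).1 (hexList_mem n hn).1 h

theorem hexads_isSteiner : IsSteinerSystem 5 6 (unm '' {m | m ∈ hexList}) := by
  constructor
  · rintro b ⟨m, hm, rfl⟩
    rw [card_unm, (hexList_mem m hm).2.1]
  · intro s hs
    obtain ⟨m, hm, rfl⟩ := exists_unm s
    rw [card_unm] at hs
    have h1 := hexList_steiner m hm hs
    rw [List.countP_eq_length_filter, List.length_eq_one_iff] at h1
    obtain ⟨a, ha⟩ := h1
    have hmem : ∀ h, h ∈ hexList ∧ m &&& h = m ↔ h = a := by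
      intro h
      have := congrArg (fun l => h ∈ l) ha
      simpa using this
    obtain ⟨haH, ham⟩ := (hmem a).2 rfl
    refine ⟨unm a, ⟨⟨a, haH, rfl⟩, (unm_subset hm).2 ham⟩, ?_⟩
    rintro _ ⟨⟨c, hc, rfl⟩, hsub⟩
    rw [(hmem c).1 ⟨hc, (unm_subset hm).1 hsub⟩]

end CfsgLib.GolayStructure.Ternary
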