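/-
Monomial automorphisms of the ternary code and automorphisms of its hexad system.
-/
import Cfsg.Agent.Lib.GolayStructure.TernaryHexads
import Cfsg.Agent.S1593

set_option autoImplicit false
set_option maxRecDepth 100000

namespace CfsgLib.GolayStructure.Ternary

open Cfsg
open scoped Pointwise

/-- `(σ, c)` preserves the code. -/
abbrev Pres (σ : Equiv.Perm ArrayPt) (c : ArrayPt → (ZMod 3)ˣ) : Prop :=
  ∀ x ∈ ternaryGolayCode, monomialMap σ c x ∈ ternaryGolayCode

/-- The family of hexads. -/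
abbrev hexads : Set (Finset ArrayPt) :=
  {h : Finset ArrayPt | ∃ x ∈ ternaryGolayCode, ternarySupport x = h ∧ h.card = 6}

theorem hexads_image : hexads = unm '' {m | m ∈ hexList} := hexads_eq

theorem monomialMap_combine (σ : Equiv.Perm ArrayPt) (c : ArrayPt → (ZMod 3)ˣ)
    (d : Fin 6 → ZMod 3) :
    monomialMap σ c (combine d) = ∑ k, d k • monomialMap σ c (row k) := by
  funext i
  simp only [monomialMap, combine_apply, Finset.sum_apply, Pi.smul_apply, smul_eq_mul,
    Finset.mul_sum]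
  exact Finset.sum_congr rfl fun k _ => mul_left_comm _ _ _

theorem pres_of_rows {σ : Equiv.Perm ArrayPt} {c : ArrayPt → (ZMod 3)ˣ}
    (h : ∀ k, monomialMap σ c (row k) ∈ ternaryGolayCode) : Pres σ c := by
  intro x hx
  obtain ⟨d, rfl⟩ := (mem_iff_combine x).1 hx
  rw [monomialMap_combine]
  exact Submodule.sum_mem _ fun k _ => Submodule.smul_mem _ _ (h k)

theorem monomialMap_comp (σ τ : Equiv.Perm ArrayPt) (c d : ArrayPt → (ZMod 3)ˣ)
    (x : ArrayPt → ZMod 3) :
    monomialMap (σ * τ) (fun i => c i * d (σ.symm i)) x = monomialMap σ c (monomialMap τ d x) := by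
  funext i
  simp [monomialMap, Equiv.Perm.mul_def, mul_assoc]

theorem pres_mul {σ τ : Equiv.Perm ArrayPt} {c d : ArrayPt → (ZMod 3)ˣ} (h : Pres σ c)
    (h' : Pres τ d) : Pres (σ * τ) fun i => c i * d (σ.symm i) := fun x hx => by
  rw [monomialMap_comp]
  exact h _ (h' x hx)

theorem monomialMap_bijOn {σ : Equiv.Perm ArrayPt} {c : ArrayPt → (ZMod 3)ˣ} (h : Pres σ c)
    {y : ArrayPt → ZMod 3} (hy : y ∈ ternaryGolayCode) :
    ∃ x ∈ ternaryGolayCode, monomialMap σ c x = y := by
  have hinj : Function.Injective fun x : ↥ternaryGolayCode =>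
      (⟨monomialMap σ c x.1, h x.1 x.2⟩ : ↥ternaryGolayCode) := by
    intro a b hab
    apply Subtype.ext
    funext p
    have := congrFun (congrArg Subtype.val hab) (σ p)
    simpa [monomialMap] using this
  obtain ⟨x, hx⟩ := Finite.surjective_of_injective hinj ⟨y, hy⟩
  exact ⟨x.1, x.2, congrArg Subtype.val hx⟩

theorem support_monomialMap (σ : Equiv.Perm ArrayPt) (c : ArrayPt → (ZMod 3)ˣ)
    (x : ArrayPt → ZMod 3) :
    ternarySupport (monomialMap σ c x) = σ • ternarySupport x := by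
  ext p
  simp [ternarySupport, monomialMap, Finset.mem_smul_finset, Equiv.Perm.smul_def,
    ← Equiv.eq_symm_apply]

theorem mem_aut_of_pres {σ : Equiv.Perm ArrayPt} {c : ArrayPt → (ZMod 3)ˣ} (h : Pres σ c) :
    σ ∈ setSystemAut hexads := by
  rw [MulAction.mem_stabilizer_iff]
  refine Set.Subset.antisymm ?_ ?_
  · rintro _ ⟨s, ⟨x, hx, rfl, hc⟩, rfl⟩
    exact ⟨_, h x hx, support_monomialMap σ c x,
      by simpa [Finset.card_smul_finset] using hc⟩
  · rintro s ⟨y, hy, rfl, hc⟩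
    obtain ⟨x, hx, rfl⟩ := monomialMap_bijOn h hy
    rw [support_monomialMap] at hc ⊢
    exact ⟨_, ⟨x, hx, rfl, by simpa [Finset.card_smul_finset] using hc⟩, rfl⟩

/-! ### Certificates -/

/-- A point map given by a table. -/
def tblMap (t : List ℕ) (p : ArrayPt) : ArrayPt := pos (t.getD (num p) 0)

/-- The permutation given by a table and its inverse table. -/
def mkPerm (t ti : List ℕ) : Equiv.Perm ArrayPt :=
  if h : (∀ p, tblMap ti (tblMap t p) = p) ∧ ∀ p, tblMap t (tblMap ti p) = p then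
    ⟨tblMap t, tblMap ti, h.1, h.2⟩ else 1

/-- Signs given by a mask. -/
def sgn (m : ℕ) (p : ArrayPt) : (ZMod 3)ˣ := if m.testBit (num p) then -1 else 1

/-- Transversals: target, table, inverse table, sign mask. -/
def transversals : List (List (ℕ × List ℕ × List ℕ × ℕ)) :=
  [
   [(0, [0,1,2,3,4,5,6,7,8,9,10,11], [0,1,2,3,4,5,6,7,8,9,10,11], 0),
    (1, [1,0,2,3,4,5,11,9,10,7,8,6], [1,0,2,3,4,5,11,9,10,7,8,6], 0),
    (2, [2,0,1,3,4,5,8,6,7,10,11,9], [1,2,0,3,4,5,7,8,6,11,9,10], 0),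
    (3, [3,0,1,2,4,5,10,7,6,8,9,11], [1,2,3,0,4,5,8,7,9,10,6,11], 2764),
    (4, [4,0,1,2,3,5,6,9,10,11,7,8], [1,2,3,4,0,5,6,10,11,7,8,9], 1940),
    (5, [5,0,1,2,3,4,9,6,8,7,11,10], [1,2,3,4,5,0,7,9,8,6,11,10], 3428),
    (6, [6,0,1,2,3,9,5,4,7,10,8,11], [1,2,3,4,7,6,0,8,10,5,9,11], 2514),
    (7, [7,0,1,2,3,11,10,8,9,4,5,6], [1,2,3,4,9,10,11,0,7,8,6,5], 3102),
    (8, [8,0,1,2,3,10,7,11,4,6,9,5], [1,2,3,4,8,11,9,6,0,10,5,7], 1224),
    (9, [9,0,1,2,3,6,4,5,11,8,10,7], [1,2,3,4,6,7,5,11,9,0,10,8], 3746),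
    (10, [10,0,1,2,3,8,11,7,5,9,6,4], [1,2,3,4,11,8,10,7,5,9,0,6], 2824),
    (11, [11,0,1,2,3,7,8,10,6,5,4,9], [1,2,3,4,10,9,8,5,6,11,7,0], 430)],
   [(1, [0,1,2,3,4,5,6,7,8,9,10,11], [0,1,2,3,4,5,6,7,8,9,10,11], 0),
    (2, [0,2,1,3,4,5,9,10,11,6,7,8], [0,2,1,3,4,5,9,10,11,6,7,8], 0),
    (3, [0,3,1,2,4,5,11,8,9,7,6,10], [0,2,3,1,4,5,10,9,7,8,11,6], 2764),
    (4, [0,4,1,2,3,5,8,11,7,9,10,6], [0,2,3,4,1,5,11,8,6,9,10,7], 1940),
    (5, [0,5,1,2,3,4,10,7,11,6,8,9], [0,2,3,4,5,1,9,7,10,11,6,8], 3428),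
    (6, [0,6,1,2,3,9,11,10,8,4,7,5], [0,2,3,4,9,11,1,10,8,5,7,6], 2514),
    (7, [0,7,1,2,3,11,6,4,5,8,9,10], [0,2,3,4,7,8,6,1,9,10,11,5], 3102),
    (8, [0,8,1,2,3,10,5,6,9,11,4,7], [0,2,3,4,10,6,7,11,1,8,5,9], 1224),
    (9, [0,9,1,2,3,6,7,8,10,5,11,4], [0,2,3,4,11,9,5,6,7,1,8,10], 3746),
    (10, [0,10,1,2,3,8,4,9,6,7,5,11], [0,2,3,4,6,10,8,9,5,7,1,11], 2824),
    (11, [0,11,1,2,3,7,9,5,4,10,6,8], [0,2,3,4,8,7,10,5,11,6,9,1], 430)],
   [(2, [0,1,2,3,4,5,6,7,8,9,10,11], [0,1,2,3,4,5,6,7,8,9,10,11], 0),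
    (3, [0,1,3,2,4,5,7,6,10,11,8,9], [0,1,3,2,4,5,7,6,10,11,8,9], 2764),
    (4, [0,1,4,2,3,5,9,10,6,8,11,7], [0,1,3,4,2,5,8,11,9,6,7,10], 1940),
    (5, [0,1,5,2,3,4,6,8,9,10,7,11], [0,1,3,4,5,2,6,10,7,8,9,11], 3428),
    (6, [0,1,6,2,3,9,4,7,5,11,10,8], [0,1,3,4,6,8,2,7,11,5,10,9], 2514),
    (7, [0,1,7,2,3,11,8,9,10,6,4,5], [0,1,3,4,10,11,9,2,6,7,8,5], 3102),
    (8, [0,1,8,2,3,10,11,4,7,5,6,9], [0,1,3,4,7,9,10,8,2,11,5,6], 1224),
    (9, [0,1,9,2,3,6,5,11,4,7,8,10], [0,1,3,4,8,6,5,9,10,2,11,7], 3746),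
    (10, [0,1,10,2,3,8,7,5,11,4,9,6], [0,1,3,4,9,7,11,6,5,10,2,8], 2824),
    (11, [0,1,11,2,3,7,10,6,8,9,5,4], [0,1,3,4,11,10,7,5,8,9,6,2], 430)],
   [(3, [0,1,2,3,4,5,6,7,8,9,10,11], [0,1,2,3,4,5,6,7,8,9,10,11], 0),
    (4, [0,1,2,4,3,5,10,9,11,7,6,8], [0,1,2,4,3,5,10,9,11,7,6,8], 0),
    (5, [0,1,2,5,3,4,8,6,7,11,9,10], [0,1,2,4,5,3,7,8,6,10,11,9], 0),
    (6, [0,1,2,6,3,9,7,4,10,8,5,11], [0,1,2,4,7,10,3,6,9,5,8,11], 6),
    (7, [0,1,2,7,3,11,9,8,4,5,10,6], [0,1,2,4,8,9,11,3,7,6,10,5], 4090),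
    (8, [0,1,2,8,3,10,4,11,6,9,7,5], [0,1,2,4,6,11,8,10,3,9,5,7], 4092),
    (9, [0,1,2,9,3,6,11,5,8,10,4,7], [0,1,2,4,10,7,5,11,8,3,9,6], 6),
    (10, [0,1,2,10,3,8,5,7,9,6,11,4], [0,1,2,4,11,6,9,7,5,8,3,10], 4092),
    (11, [0,1,2,11,3,7,6,10,5,4,8,9], [0,1,2,4,9,8,6,5,10,11,7,3], 4090)],
   [(4, [0,1,2,3,4,5,6,7,8,9,10,11], [0,1,2,3,4,5,6,7,8,9,10,11], 0),
    (5, [0,1,2,3,5,4,9,11,10,6,8,7], [0,1,2,3,5,4,9,11,10,6,8,7], 0),
    (6, [0,1,2,3,6,9,5,8,11,4,7,10], [0,1,2,3,9,6,4,10,7,5,11,8], 6),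
    (7, [0,1,2,3,7,11,10,5,6,8,9,4], [0,1,2,3,11,7,8,4,9,10,6,5], 4090),
    (8, [0,1,2,3,8,10,7,9,5,11,4,6], [0,1,2,3,10,8,11,6,4,7,5,9], 4092),
    (9, [0,1,2,3,9,6,4,10,7,5,11,8], [0,1,2,3,6,9,5,8,11,4,7,10], 6),
    (10, [0,1,2,3,10,8,11,6,4,7,5,9], [0,1,2,3,8,10,7,9,5,11,4,6], 4092),
    (11, [0,1,2,3,11,7,8,4,9,10,6,5], [0,1,2,3,7,11,10,5,6,8,9,4], 4090)]]

theorem transversals_ok : ∀ i < 5, ∀ e ∈ transversals.getD i [],
    (∀ j < i, mkPerm e.2.1 e.2.2.1 (pos j) = pos j) ∧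
      mkPerm e.2.1 e.2.2.1 (pos i) = pos e.1 ∧
      ∀ k, monomialMap (mkPerm e.2.1 e.2.2.1) (sgn e.2.2.2) (row k) ∈ ternaryGolayCode := by
  decide +kernel

theorem transversals_complete : ∀ i < 5, ∀ q < 12, i ≤ q →
    ∃ e ∈ transversals.getD i [], e.1 = q := by decide +kernel

/-! ### Fixing five points -/

/-- Bit `h` is set exactly for the hexads `h`. -/
def hexBitmap : ℕ := 5661643470739229049383060868634329191391420726740710096321903183076807261028595238427342886899059356659453131924897838616461412918609854705190402732685669038630834329323427813130983174451518106028623781020513028310307129081205450036872019854905177781652095019578042749874953101647794765507143651576318771614780772965393242407380031251469169668245349775256698115771025289585881588089902728375498939317779084718683734203387145734007850845787783745907204722924842891867211811656716768514387854777333345007684494065885921499932512960250155885110497692398275069300912096463281419399168035489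3635030030836333415463315325253678746787809320187128156980823899637471492220311404941243786052492713182738134328711663684007242320418419141695329129535182791143355222521244263987029853496949810499493143085305780784673064128200836929668874800415841456585828974398871352587171226866468138417067278060298687515445872572279023192332183263791556260396583867539176980932805504251174452757142201001178607968280416838410976781783026036177284703664475156443601415081467147860243572819336534469608973602680420013884416783892022513924126910480808755978114617278929873061085508796110570687671481576307753911406027929554142807522829481803776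

/-- The image mask of `h` under a partial assignment. -/
def img : List (ℕ × ℕ) → ℕ → ℕ
  | [], _ => 0
  | (a, b) :: l, h => if h.testBit a then 2 ^ b ||| img l h else img l h

/-- The mask of the domain of a partial assignment. -/
def dom : List (ℕ × ℕ) → ℕ
  | [] => 0
  | (a, _) :: l => 2 ^ a ||| dom l

/-- Are the hexads inside the domain sent to hexads? -/
def consistent (asg : List (ℕ × ℕ)) : Bool :=
  hexList.all fun h => !(h &&& dom asg == h) || hexBitmap.testBit (img asg h)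

/-- Every consistent completion is the identity. -/
def search : List ℕ → List (ℕ × ℕ) → Bool
  | [], asg => asg.all fun ab => ab.1 == ab.2
  | x :: rest, asg => (List.range 12).all fun y =>
      asg.any (fun ab => ab.2 == y) || !consistent ((x, y) :: asg) ||
        search rest ((x, y) :: asg)

theorem hexBitmap_ok : (List.range 4096).all (fun h => hexBitmap.testBit h == hexList.elem h)
    = true := by decide +kernel

theorem search_five :
    search [5, 6, 7, 8, 9, 10, 11] [(4, 4), (3, 3), (2, 2), (1, 1), (0, 0)] = true := by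
  decide +kernel

theorem testBit_img (l : List (ℕ × ℕ)) (h j : ℕ) :
    (img l h).testBit j = true ↔ ∃ ab ∈ l, h.testBit ab.1 = true ∧ ab.2 = j := by
  induction l with
  | nil => simp [img]
  | cons ab l ih =>
    obtain ⟨a, b⟩ := ab
    simp only [img]
    split <;> rename_i ha <;>
      simp [Nat.testBit_lor, Nat.testBit_two_pow, ih, ha]

theorem testBit_dom (l : List (ℕ × ℕ)) (j : ℕ) :
    (dom l).testBit j = true ↔ ∃ ab ∈ l, ab.1 = j := by
  induction l with
  | nil => simp [dom]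
  | cons ab l ih =>
    obtain ⟨a, b⟩ := ab
    simp [dom, Nat.testBit_lor, Nat.testBit_two_pow, ih]

/-- The action of a permutation on numbers. -/
def act (τ : Equiv.Perm ArrayPt) (a : ℕ) : ℕ := num (τ (pos a))

theorem search_sound {τ : Equiv.Perm ArrayPt} (hτ : τ ∈ setSystemAut hexads) :
    ∀ (todo : List ℕ) (asg : List (ℕ × ℕ)), search todo asg = true →
      (∀ a ∈ todo, a < 12) → todo.Nodup →
      (∀ ab ∈ asg, ab.1 < 12 ∧ ab.2 = act τ ab.1 ∧ ab.1 ∉ todo) →
      (∀ ab ∈ asg, act τ ab.1 = ab.1) ∧ ∀ a ∈ todo, act τ a = a := by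
  intro todo
  induction todo with
  | nil =>
    intro asg h _ _ hasg
    refine ⟨fun ab hab => ?_, by simp⟩
    have := List.all_eq_true.1 h ab hab
    rw [← (hasg ab hab).2.1]
    exact (beq_iff_eq.1 this).symm
  | cons x rest ih =>
    intro asg h hlt hnd hasg
    obtain ⟨hxr, hnd⟩ := List.nodup_cons.1 hnd
    have hx12 : x < 12 := hlt x List.mem_cons_self
    have hy := List.all_eq_true.1 h (act τ x) (List.mem_range.2 (num_lt _))
    have hA : ∀ ab ∈ (x, act τ x) :: asg, ab.1 < 12 ∧ ab.2 = act τ ab.1 ∧ ab.1 ∉ rest := by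
      intro ab hab
      rcases List.mem_cons.1 hab with rfl | hab
      · exact ⟨hx12, rfl, hxr⟩
      · obtain ⟨h1, h2, h3⟩ := hasg ab hab
        exact ⟨h1, h2, fun hc => h3 (List.mem_cons_of_mem _ hc)⟩
    simp only [Bool.or_eq_true, List.any_eq_true, beq_iff_eq, Bool.not_eq_true'] at hy
    rcases hy with (⟨ab, hab, he⟩ | hcons) | hs
    · exfalso
      obtain ⟨h1, h2, h3⟩ := hasg ab hab
      have := num_injective (h2.symm.trans he)
      have := congrArg num (τ.injective this)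
      rw [num_pos _ h1, num_pos _ hx12] at this
      exact h3 (this ▸ List.mem_cons_self)
    · exfalso
      rw [consistent, List.all_eq_false] at hcons
      obtain ⟨m, hm, hbad⟩ := hcons
      generalize hasg' : (x, act τ x) :: asg = A at hA hbad
      simp only [Bool.or_eq_true, Bool.not_eq_true', beq_eq_false_iff_ne, not_or, ne_eq,
        not_not] at hbad
      obtain ⟨hdom, hbit⟩ := hbad
      obtain ⟨hm12, -, -⟩ := hexList_mem m hm
      have himg : τ • unm m ∈ hexads := by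
        have hmem : unm m ∈ hexads := by
          rw [hexads_image]; exact ⟨m, hm, rfl⟩
        have := Set.smul_mem_smul_set (a := τ) hmem
        rwa [MulAction.mem_stabilizer_iff.1 hτ] at this
      rw [hexads_image] at himg
      obtain ⟨m', hm', he⟩ := himg
      have hm'12 := (hexList_mem m' hm').1
      have hlt' : img A m < 4096 := by
        apply Nat.lt_pow_two_of_testBit (n := 12)
        intro j hj
        by_contra hb
        obtain ⟨ab, hab, -, rfl⟩ := (testBit_img A m j).1 (by simpa using hb)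
        have := num_lt (τ (pos ab.1))
        rw [(hA ab hab).2.1] at hj
        exact absurd hj (by simpa [act] using this)
      have heq : unm (img A m) = τ • unm m := by
        ext p
        simp only [mem_unm, testBit_img, Finset.mem_smul_finset, Equiv.Perm.smul_def]
        constructor
        · rintro ⟨ab, hab, ht, he'⟩
          refine ⟨pos ab.1, by rwa [num_pos _ (hA ab hab).1], ?_⟩
          exact num_injective ((hA ab hab).2.1.symm.trans he')
        · rintro ⟨q, hq, rfl⟩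
          have : (m &&& dom A).testBit (num q) = true := by rw [hdom]; exact hq
          rw [Nat.testBit_and, Bool.and_eq_true, testBit_dom] at this
          obtain ⟨-, ab, hab, ha⟩ := this
          refine ⟨ab, hab, ha ▸ hq, ?_⟩
          rw [(hA ab hab).2.1, act, ha, pos_num]
      have := unm_injOn hlt' hm'12 (heq.trans he.symm)
      apply hbit
      rw [this, beq_iff_eq.1 (List.all_eq_true.1 hexBitmap_ok m' (List.mem_range.2 hm'12))]
      exact List.elem_iff.2 hm'
    · obtain ⟨h1, h2⟩ := ih _ hs (fun a ha => hlt a (List.mem_cons_of_mem _ ha)) hnd hA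
      refine ⟨fun ab hab => h1 ab (List.mem_cons_of_mem _ hab), ?_⟩
      intro a ha
      rcases List.mem_cons.1 ha with rfl | ha
      · exact h1 (a, act τ a) List.mem_cons_self
      · exact h2 a ha

theorem eq_one_of_fix_five {τ : Equiv.Perm ArrayPt} (hτ : τ ∈ setSystemAut hexads)
    (h5 : ∀ j < 5, τ (pos j) = pos j) : τ = 1 := by
  have hact : ∀ j < 5, act τ j = j := fun j hj => by
    rw [act, h5 j hj, num_pos j (by omega)]
  obtain ⟨h1, h2⟩ := search_sound hτ _ _ search_five (by decide) (by decide) (by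
    intro ab hab
    simp only [List.mem_cons, List.not_mem_nil, or_false] at hab
    rcases hab with rfl | rfl | rfl | rfl | rfl <;>
      exact ⟨by decide, (hact _ (by decide)).symm, by decide⟩)
  refine Equiv.ext fun p => num_injective ?_
  have hp := num_lt p
  have : act τ (num p) = num p := by
    rcases lt_or_ge (num p) 5 with h | h
    · exact hact _ h
    · apply h2
      simp only [List.mem_cons, List.not_mem_nil, or_false]
      omega
  rwa [act, pos_num] at this

theorem exists_pres_aux : ∀ (k i : ℕ), i + k = 5 → ∀ e : ℕ → ArrayPt,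
    (∀ a < 5, ∀ b < 5, e a = e b → a = b) → (∀ j < i, e j = pos j) →
      ∃ g : Equiv.Perm ArrayPt, (∃ c, Pres g c) ∧ ∀ j < 5, g (pos j) = e j := by
  intro k
  induction k with
  | zero =>
    intro i hi e _ hfix
    exact ⟨1, ⟨fun _ => 1, fun x hx => by
      have : monomialMap (1 : Equiv.Perm ArrayPt) (fun _ => 1) x = x := by
        funext p; simp [monomialMap, Equiv.Perm.one_def]
      rwa [this]⟩, fun j hj => by simp [hfix j (by omega)]⟩
  | succ k ih =>
    intro i hi e hinj hfix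
    have hq := num_lt (e i)
    have hiq : i ≤ num (e i) := by
      by_contra hlt
      have := hinj i (by omega) _ (by omega)
        ((pos_num (e i)).symm.trans (hfix _ (not_le.1 hlt)).symm)
      omega
    obtain ⟨t, ht, htq⟩ := transversals_complete i (by omega) _ hq hiq
    obtain ⟨hfx, himg, hrow⟩ := transversals_ok i (by omega) t ht
    rw [htq, pos_num] at himg
    set g0 := mkPerm t.2.1 t.2.2.1
    obtain ⟨g, ⟨c, hc⟩, hg⟩ := ih (i + 1) (by omega) (fun j => g0.symm (e j))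
      (fun a ha b hb h => hinj a ha b hb (g0.symm.injective h)) (fun j hj => by
        rw [Equiv.symm_apply_eq]
        rcases Nat.lt_succ_iff_lt_or_eq.1 hj with h | rfl
        · rw [hfx j h, hfix j h]
        · rw [himg])
    exact ⟨g0 * g, ⟨_, pres_mul (pres_of_rows hrow) hc⟩, fun j hj => by
      simp [hg j hj]⟩

/-- Five ordered distinct points can be sent anywhere. -/
theorem exists_pres (e : Fin 5 ↪ ArrayPt) :
    ∃ g : Equiv.Perm ArrayPt, (∃ c, Pres g c) ∧ ∀ j : Fin 5, g (pos j.val) = e j := by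
  obtain ⟨g, hg, he⟩ := exists_pres_aux 5 0 rfl (fun a => e (Fin.ofNat 5 a)) (fun a ha b hb h => by
      have := congrArg Fin.val (e.injective h)
      simpa [Fin.ofNat, Nat.mod_eq_of_lt ha, Nat.mod_eq_of_lt hb] using this)
    (by simp)
  exact ⟨g, hg, fun j => by simpa using he j.val j.isLt⟩

theorem pos_val_injective : Function.Injective fun j : Fin 5 => pos j.val := by decide

theorem eq_of_agree {σ τ : Equiv.Perm ArrayPt} (hσ : σ ∈ setSystemAut hexads)
    (hτ : τ ∈ setSystemAut hexads) (h : ∀ j : Fin 5, σ (pos j.val) = τ (pos j.val)) : σ = τ := by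
  have := eq_one_of_fix_five (mul_mem (inv_mem hτ) hσ) fun j hj => by
    rw [Equiv.Perm.mul_apply, h ⟨j, hj⟩]; simp
  exact (inv_mul_eq_one.1 this).symm

theorem exists_signs {σ : Equiv.Perm ArrayPt} (hσ : σ ∈ setSystemAut hexads) :
    ∃ c, Pres σ c := by
  obtain ⟨g, ⟨c, hc⟩, hg⟩ :=
    exists_pres ⟨fun j => σ (pos j.val), σ.injective.comp pos_val_injective⟩
  exact ⟨c, eq_of_agree hσ (mem_aut_of_pres hc) (fun j => (hg j).symm) ▸ hc⟩

theorem card_aut : Nat.card ↥(setSystemAut hexads) = 95040 := by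
  rw [Nat.card_eq_of_bijective (fun σ : ↥(setSystemAut hexads) =>
    (⟨fun j => σ.1 (pos j.val), σ.1.injective.comp pos_val_injective⟩ : Fin 5 ↪ ArrayPt))]
  · simp [Fintype.card_embedding_eq, Nat.descFactorial]
  · refine ⟨fun a b h => Subtype.ext (eq_of_agree a.2 b.2 fun j => ?_), fun e => ?_⟩
    · exact DFunLike.congr_fun h j
    · obtain ⟨g, ⟨c, hc⟩, hg⟩ := exists_pres e
      exact ⟨⟨g, mem_aut_of_pres hc⟩, DFunLike.ext _ _ hg⟩

theorem signs_unique {σ : Equiv.Perm ArrayPt} {c c' : ArrayPt → (ZMod 3)ˣ} (h : Pres σ c)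
    (h' : Pres σ c') : ∃ u : (ZMod 3)ˣ, c' = fun i => u * c i := by
  have hd : Pres 1 fun i => c' i * (c i)⁻¹ := by
    intro y hy
    obtain ⟨x, hx, rfl⟩ := monomialMap_bijOn h hy
    rw [← monomialMap_comp, one_mul]
    have he : (fun i => c' i * (c i)⁻¹ * c ((1 : Equiv.Perm ArrayPt).symm i)) = c' := by
      funext i; simp [Equiv.Perm.one_def]
    rw [he]
    exact h' x hx
  rcases Cfsg.Agent.S1593.result _ hd with h1 | h1
  · exact ⟨1, funext fun i => by rw [one_mul]; exact mul_inv_eq_one.1 (h1 i)⟩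
  · exact ⟨-1, funext fun i => mul_inv_eq_iff_eq_mul.1 (h1 i)⟩

theorem pres_scalar {σ : Equiv.Perm ArrayPt} {c : ArrayPt → (ZMod 3)ˣ} (h : Pres σ c)
    (u : (ZMod 3)ˣ) : Pres σ fun i => u * c i := fun x hx => by
  have he : monomialMap σ (fun i => u * c i) x = (u : ZMod 3) • monomialMap σ c x := by
    funext i; simp [monomialMap, mul_assoc]
  rw [he]
  exact Submodule.smul_mem _ _ (h x hx)

theorem card_monomial :
    Nat.card {f : Equiv.Perm ArrayPt × (ArrayPt → (ZMod 3)ˣ) // Pres f.1 f.2} = 190080 := by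
  have hs : ∀ σ : ↥(setSystemAut hexads), ∃ c, Pres σ.1 c := fun σ => exists_signs σ.2
  choose c hc using hs
  rw [← Nat.card_eq_of_bijective (fun su : ↥(setSystemAut hexads) × (ZMod 3)ˣ =>
    (⟨(su.1.1, fun i => su.2 * c su.1 i), pres_scalar (hc su.1) su.2⟩ :
      {f : Equiv.Perm ArrayPt × (ArrayPt → (ZMod 3)ˣ) // Pres f.1 f.2}))]
  · rw [Nat.card_prod, card_aut]
    simp [Nat.card_eq_fintype_card]
    decide
  · constructor
    · rintro ⟨σ, u⟩ ⟨τ, v⟩ h
      simp only [Subtype.mk.injEq, Prod.mk.injEq] at h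
      obtain ⟨h1, h2⟩ := h
      have h1 := Subtype.ext h1
      subst h1
      have := congrFun h2 (pos 0)
      rw [mul_left_inj] at this
      rw [this]
    · rintro ⟨⟨σ, d⟩, hd⟩
      obtain ⟨u, hu⟩ := signs_unique (hc ⟨σ, mem_aut_of_pres hd⟩) hd
      exact ⟨(⟨σ, mem_aut_of_pres hd⟩, u), Subtype.ext (Prod.ext rfl hu.symm)⟩

end CfsgLib.GolayStructure.Ternary
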