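/-
The triads disjoint from a given triad, under its stabiliser.
-/
import Cfsg.Agent.Lib.GolayStructure.TriadOrbits
import Cfsg.Agent.Lib.Golay.Octads

set_option autoImplicit false

namespace CfsgLib.GolayStructure

open Cfsg CfsgLib.Golay
open scoped Pointwise

/-- Do two triads lie in a common octad. -/
def InOctad (T U : Finset GolayPt) : Prop := ∃ o ∈ octads, T ∪ U ⊆ o

open Classical in
/-- Twice the intersection size, plus one when the triads lie in an octad. -/
noncomputable def triadTag (T U : Finset GolayPt) : ℕ :=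
  2 * (T ∩ U).card + if InOctad T U then 1 else 0

theorem inOctad_smul (g : M24) (T U : Finset GolayPt) : InOctad (g • T) (g • U) ↔ InOctad T U := by
  constructor
  · rintro ⟨o, ho, h⟩
    refine ⟨g⁻¹ • o, smul_mem_octads g⁻¹ ho, ?_⟩
    rw [← smul_union] at h
    exact Finset.smul_finset_subset_iff.1 h
  · rintro ⟨o, ho, h⟩
    exact ⟨g • o, smul_mem_octads g ho, by
      rw [← smul_union]; exact Finset.smul_finset_subset_smul_finset h⟩

theorem triadTag_conj (g : M24) (T U : Finset GolayPt) :
    triadTag (g • T) (g • U) = triadTag T U := by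
  classical
  simp only [triadTag, ← Finset.smul_finset_inter, card_smul]
  congr 1
  exact if_congr (inOctad_smul g T U) rfl rfl

theorem triadTag_smul :
    ∀ h ∈ MulAction.stabilizer M24 baseTriad, ∀ x, triadTag baseTriad (h • x) = triadTag baseTriad x :=
  fun h hh x => by
    conv_lhs => rw [← MulAction.mem_stabilizer_iff.1 hh]
    exact triadTag_conj h _ _

theorem triadNoOctad : allSpan basisMasks (fun n => !(popc n == 8) ||
    !((14680064 ||| 7) &&& n == (14680064 ||| 7))) = true := by
  decide +kernel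

theorem not_inOctad_root : ¬ InOctad (unmask 14680064) (unmask 7) := by
  rintro ⟨o, ho, hsub⟩
  obtain ⟨n, hn, hpc, rfl⟩ := mem_octads_iff.1 ho
  have h := allSpan_iff.1 triadNoOctad n hn
  simp only [hpc, beq_self_eq_true, Bool.not_true, Bool.false_or, Bool.not_eq_true',
    beq_eq_false_iff_ne, ne_eq] at h
  apply h
  refine unmask_injOn (Nat.lt_of_le_of_lt Nat.and_le_left (by decide)) (by decide) ?_
  rw [unmask_and, unmask_or, Finset.inter_eq_left.2 hsub]

theorem inOctad_root : InOctad (unmask 14680064) (unmask 11) := by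
  refine ⟨unmask 14716939, mem_octads_iff.2 ⟨14716939, inCode_iff.1 (by decide +kernel),
    by decide +kernel, rfl⟩, ?_⟩
  rw [← unmask_or]
  exact unmask_subset (by decide +kernel)

theorem triadRootList : triadStabParts.map (fun P =>
    (fieldAt 24 triadTable P.root, popc (14680064 &&& fieldAt 24 triadTable P.root), P.size + 1)) =
    [(14680064, 3, 1), (7, 0, 1120), (11, 0, 210), (2097155, 1, 630), (6291457, 2, 63)] := by
  decide +kernel

theorem baseTriad_eq : baseTriad = unmask 14680064 :=
  congrArg unmask (by decide +kernel : fieldAt 24 triadTable triadRoot = 14680064)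

theorem triadSub_sep : ∀ P ∈ triadSub.parts, ∀ Q ∈ triadSub.parts,
    triadTag baseTriad (setKind.dec (triadSub.R P.root)) =
      triadTag baseTriad (setKind.dec (triadSub.R Q.root)) → P = Q := by
  classical
  intro P hP Q hQ h
  have hmP := List.mem_map_of_mem (f := fun P : Part =>
    (fieldAt 24 triadTable P.root, popc (14680064 &&& fieldAt 24 triadTable P.root), P.size + 1)) hP
  have hmQ := List.mem_map_of_mem (f := fun P : Part =>
    (fieldAt 24 triadTable P.root, popc (14680064 &&& fieldAt 24 triadTable P.root), P.size + 1)) hQ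
  change _ ∈ triadStabParts.map _ at hmP hmQ
  rw [triadRootList] at hmP hmQ
  have hnd : (triadStabParts.map fun P => fieldAt 24 triadTable P.root).Nodup := by
    decide +kernel
  refine List.inj_on_of_nodup_map hnd hP hQ ?_
  simp only [baseTriad_eq, triadTag, setKind, triadSub, card_inter_unmask] at h
  simp only [List.mem_cons, Prod.mk.injEq, List.not_mem_nil, or_false] at hmP hmQ
  have no := not_inOctad_root
  have yes := inOctad_root
  rcases hmP with ⟨p, p', -⟩ | ⟨p, p', -⟩ | ⟨p, p', -⟩ | ⟨p, p', -⟩ | ⟨p, p', -⟩ <;>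
    rcases hmQ with ⟨q, q', -⟩ | ⟨q, q', -⟩ | ⟨q, q', -⟩ | ⟨q, q', -⟩ | ⟨q, q', -⟩ <;>
    rw [p', q'] at h <;> rw [p, q] at h ⊢ <;> (try simp only [no, yes, if_true, if_false] at h) <;>
    (try split_ifs at h) <;> omega

theorem exists_triad_conj {T : Finset GolayPt} (hT : T.card = 3) :
    ∃ g : M24, g • baseTriad = T :=
  exists_smul_baseTriad hT

theorem triad_related {T x y : Finset GolayPt} (hT : T.card = 3) (hx : x.card = 3)
    (hy : y.card = 3) (h : triadTag T x = triadTag T y) :
    ∃ g : M24, g • T = T ∧ g • x = y := by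
  obtain ⟨a, rfl⟩ := exists_triad_conj hT
  have e : ∀ z, triadTag baseTriad (a⁻¹ • z) = triadTag (a • baseTriad) z := fun z => by
    rw [← triadTag_conj a baseTriad (a⁻¹ • z), smul_inv_smul]
  obtain ⟨k, hk, he⟩ := triadSub.related_of_inv (by norm_num) triadSub_gens
    (triadTag baseTriad) triadTag_smul triadSub_sep
    (smul_mem_triads a⁻¹ hx) (smul_mem_triads a⁻¹ hy) (by rw [e, e, h])
  refine ⟨a * k * a⁻¹, ?_, ?_⟩
  · rw [mul_smul, mul_smul, inv_smul_smul, MulAction.mem_stabilizer_iff.1 hk]
  · rw [mul_smul, mul_smul, he, smul_inv_smul]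

theorem ncard_triadTag {T : Finset GolayPt} (hT : T.card = 3) :
    {U | U ∈ triads ∧ triadTag T U = 1}.ncard = 210 ∧
      {U | U ∈ triads ∧ triadTag T U = 0}.ncard = 1120 := by
  obtain ⟨g, rfl⟩ := exists_triad_conj hT
  have himg : ∀ k, {U | U ∈ triads ∧ triadTag (g • baseTriad) U = k} =
      (g • ·) '' {U | U ∈ triads ∧ triadTag baseTriad U = k} := by
    intro k
    ext x
    constructor
    · rintro ⟨hx, hk⟩
      refine ⟨g⁻¹ • x, ⟨smul_mem_triads g⁻¹ hx, ?_⟩, smul_inv_smul g x⟩
      rw [← hk, ← triadTag_conj g baseTriad (g⁻¹ • x), smul_inv_smul]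
    · rintro ⟨z, ⟨hz, hk⟩, rfl⟩
      exact ⟨smul_mem_triads g hz, by rw [triadTag_conj, hk]⟩
  have key : ∀ P ∈ triadSub.parts, ∀ k n, triadTag baseTriad (setKind.dec (triadSub.R P.root)) = k →
      P.size + 1 = n → {U | U ∈ triads ∧ triadTag (g • baseTriad) U = k}.ncard = n := by
    intro P hP k n hk hn
    rw [himg, Set.ncard_image_of_injective _ (MulAction.injective g), ← hk, ← hn,
      triadSub.fiber_eq (by norm_num) triadSub_gens (triadTag baseTriad) triadTag_smul
        triadSub_sep hP]
    exact triadSub.ncard_set hP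
  have get : ∀ e ∈ [(14680064, 3, 1), (7, 0, 1120), (11, 0, 210)],
      ∃ P ∈ triadSub.parts, fieldAt 24 triadTable P.root = e.1 ∧ P.size + 1 = e.2.2 := by
    intro e he
    have : e ∈ triadStabParts.map (fun P => (fieldAt 24 triadTable P.root,
        popc (14680064 &&& fieldAt 24 triadTable P.root), P.size + 1)) := by
      rw [triadRootList]
      simp only [List.mem_cons, List.not_mem_nil, or_false] at he ⊢
      tauto
    obtain ⟨P, hP, hPe⟩ := List.mem_map.1 this
    exact ⟨P, hP, congrArg Prod.fst hPe, congrArg (·.2.2) hPe⟩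
  obtain ⟨P, hP, hr, hn⟩ := get (11, 0, 210) (by simp)
  obtain ⟨Q, hQ, hr', hn'⟩ := get (7, 0, 1120) (by simp)
  refine ⟨key P hP 1 210 ?_ hn, key Q hQ 0 1120 ?_ hn'⟩
  · simp only [baseTriad_eq, triadTag, setKind, triadSub, hr, inOctad_root, if_true,
      card_inter_unmask]
    decide +kernel
  · simp only [baseTriad_eq, triadTag, setKind, triadSub, hr', not_inOctad_root, if_false,
      card_inter_unmask]
    decide +kernel

theorem triadTag_of_disjoint {T U : Finset GolayPt} (hd : Disjoint T U) :
    (InOctad T U → triadTag T U = 1) ∧ (¬ InOctad T U → triadTag T U = 0) := by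
  simp [triadTag, Finset.disjoint_iff_inter_eq_empty.1 hd]

theorem triadTag_eq_iff {T U : Finset GolayPt} :
    (triadTag T U = 1 ↔ Disjoint T U ∧ InOctad T U) ∧
      (triadTag T U = 0 ↔ Disjoint T U ∧ ¬ InOctad T U) := by
  rw [Finset.disjoint_iff_inter_eq_empty, ← Finset.card_eq_zero]
  by_cases h : InOctad T U <;> simp [triadTag, h] <;> omega

end CfsgLib.GolayStructure
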