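/-
The stabiliser of a trio: 2^6 : (GL(3,2) x S3).
-/
import Cfsg.Agent.Lib.GolayStructure.StabGen
import Cfsg.Agent.Lib.GolayStructure.StabOrders
import Cfsg.Agent.Lib.GolayStructure.TrioInv
import Cfsg.Agent.Lib.GolayStructure.DataTrioStab

set_option autoImplicit false

namespace CfsgLib.GolayStructure

open Cfsg
open CfsgLib.Golay (unmask)
open scoped Pointwise Matrix

theorem trioMasks_eq : trioMasks = trioRootLists.getD 0 [] := by decide +kernel

theorem baseTrio_eq :
    baseTrio = (trioMasks.map unmask).toFinset ∧ (trioMasks.map unmask).Nodup := by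
  have h := trioRoot_dec 0 (by norm_num)
  rw [← trioMasks_eq] at h
  exact ⟨h.2, maskList_spec h.1⟩

theorem trioStab_checks :
    swapOK trioMasks trioSwaps = true ∧ kernelOK trioMasks trioLevels trioFinal = true ∧
      spanOK trioSix = true := by
  decide +kernel

theorem trio_setPerm_surjective {T : Finset (Finset GolayPt)} (hT : T ∈ trios) :
    ∀ e : Equiv.Perm ↥T, ∃ g : MulAction.stabilizer M24 T, setPerm T g = e := by
  obtain ⟨a, rfl⟩ := exists_smul_baseTrio hT
  intro e
  have hsurj := swaps_surjective baseTrio_eq.1 baseTrio_eq.2 (by decide) trioStab_checks.1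
    (H := ⊤) (fun _ _ => Subgroup.mem_top _)
  let φ : ↥baseTrio ≃ ↥(a • baseTrio) :=
    (MulAction.toPerm a).subtypeEquiv fun t => Finset.smul_mem_smul_finset_iff a |>.symm
  obtain ⟨g, -, hg⟩ := hsurj (φ.trans (e.trans φ.symm))
  refine ⟨MulAction.stabilizerEquivStabilizer (a := baseTrio) (g := a) rfl g, ?_⟩
  refine Equiv.Perm.ext fun t => Subtype.ext ?_
  obtain ⟨s, rfl⟩ := φ.surjective t
  rw [setPerm_apply, MulAction.stabilizerEquivStabilizer_apply, MulAut.conj_apply, mul_smul,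
    mul_smul]
  change a • (g : M24) • a⁻¹ • a • (s : Finset GolayPt) = _
  rw [inv_smul_smul, ← setPerm_apply g s, hg]
  change ((φ (φ.symm (e (φ s))) : ↥(a • baseTrio)) : Finset GolayPt) = _
  rw [Equiv.apply_symm_apply]

/-! ### The linear action on the seven refining sextets -/

/-- Vectors over the field with two elements. -/
abbrev Vec3 : Type := Fin 3 → ZMod 2

/-- The number of a vector. -/
def vidx (v : Vec3) : ℕ := (v 0).val + 2 * (v 1).val + 4 * (v 2).val

/-- The representative tetrad with a given number. -/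
def refRep (j : ℕ) : ℕ := trioSextets.getD j 0

/-- The sextet attached to a vector. -/
noncomputable def refSextet (v : Vec3) : Finset (Finset GolayPt) := sextetKind.dec (refRep (vidx v))

/-- A linear combination of three numbered vectors. -/
def combIdx (a b c j : ℕ) : ℕ :=
  (bif j.testBit 0 then a else 0) ^^^ (bif j.testBit 1 then b else 0) ^^^
    (bif j.testBit 2 then c else 0)

/-- Does the table take sextet `j` to sextet `k`. -/
noncomputable def refStep (t : ℕ × ℕ) (j k : ℕ) : Bool := sextetKind.ok t.1 (refRep j) (refRep k)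

/-- The image number of sextet `j`. -/
noncomputable def refImg (t : ℕ × ℕ) (j : ℕ) : ℕ := ((List.range 8).find? (refStep t j)).getD 0

/-- The table acts linearly on the seven sextets. -/
noncomputable def linOK (t : ℕ × ℕ) : Bool :=
  isM24Tbl t && ([1, 2, 3, 4, 5, 6, 7].all fun j =>
    refStep t j (combIdx (refImg t 1) (refImg t 2) (refImg t 4) j))

/-- The matrix with given numbered columns. -/
def colMat (a b c : ℕ) : Matrix (Fin 3) (Fin 3) (ZMod 2) :=
  fun i j => if ([a, b, c].getD j.val 0).testBit i.val then 1 else 0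

theorem vidx_colMat : ∀ a b c : Fin 8, ∀ v : Vec3,
    vidx (colMat a b c *ᵥ v) = combIdx a b c (vidx v) := by
  decide +kernel

theorem vidx_facts : (∀ v : Vec3, vidx v < 8) ∧ (∀ v : Vec3, v ≠ 0 → vidx v ∈ [1, 2, 3, 4, 5, 6, 7]) ∧
    (∀ v w : Vec3, vidx v = vidx w → v = w) ∧
    vidx ![1, 0, 0] = 1 ∧ vidx ![0, 1, 0] = 2 ∧ vidx ![0, 0, 1] = 4 ∧
    vidx (0 : Vec3) = 0 := by
  decide +kernel

theorem refImg_lt (t : ℕ × ℕ) (j : ℕ) : refImg t j < 8 := by
  rw [refImg]
  cases h : (List.range 8).find? (refStep t j) with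
  | none => norm_num
  | some k => exact List.mem_range.1 (List.mem_of_find?_eq_some h)

theorem refRep_facts : (∀ j < 8, CfsgLib.Golay.popc (refRep j) = 4 ↔ j ≠ 0) ∧
    (∀ j < 8, j ≠ 0 → refRep j < 16777216) ∧
    (∀ j < 8, ∀ k < 8, refRep j = refRep k → j = k) ∧
    (∀ j < 8, j ≠ 0 → (refRep j).testBit 5 = true) := by
  decide +kernel

theorem refSextet_injective {v w : Vec3} (hv : v ≠ 0) (hw : w ≠ 0)
    (h : refSextet v = refSextet w) : v = w := by
  have hv0 : vidx v ≠ 0 := fun e => hv (vidx_facts.2.2.1 v 0 (e.trans vidx_facts.2.2.2.2.2.2.symm))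
  have hw0 : vidx w ≠ 0 := fun e => hw (vidx_facts.2.2.1 w 0 (e.trans vidx_facts.2.2.2.2.2.2.symm))
  have cv : (unmask (refRep (vidx v))).card = 4 := by
    rw [CfsgLib.Golay.card_unmask]; exact (refRep_facts.1 _ (vidx_facts.1 v)).2 hv0
  have hmem : unmask (refRep (vidx w)) ∈ sextetOf (unmask (refRep (vidx v))) := by
    have h : sextetOf (unmask (refRep (vidx v))) = sextetOf (unmask (refRep (vidx w))) := h
    rw [h]; exact Finset.mem_insert_self _ _
  refine vidx_facts.2.2.1 v w (refRep_facts.2.2.1 _ (vidx_facts.1 v) _ (vidx_facts.1 w) ?_)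
  refine CfsgLib.Golay.unmask_injOn (refRep_facts.2.1 _ (vidx_facts.1 v) hv0)
    (refRep_facts.2.1 _ (vidx_facts.1 w) hw0) ?_
  by_contra hne
  have hp : CfsgLib.Golay.pt 5 ∈ unmask (refRep (vidx v)) :=
    (CfsgLib.Golay.pt_mem_unmask (by norm_num)).2 (refRep_facts.2.2.2 _ (vidx_facts.1 v) hv0)
  have hp' : CfsgLib.Golay.pt 5 ∈ unmask (refRep (vidx w)) :=
    (CfsgLib.Golay.pt_mem_unmask (by norm_num)).2 (refRep_facts.2.2.2 _ (vidx_facts.1 w) hw0)
  exact Finset.disjoint_left.1
    (sextet_disjoint (sextetOf_mem cv) (Finset.mem_insert_self _ _) hmem hne) hp hp'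

/-- `g` acts on the seven sextets as the matrix `A`. -/
def ActsAs (g : M24) (A : GL (Fin 3) (ZMod 2)) : Prop :=
  ∀ v : Vec3, v ≠ 0 → g • refSextet v = refSextet (A.1 *ᵥ v)

theorem gl_mulVec_ne {A : GL (Fin 3) (ZMod 2)} {v : Vec3} (hv : v ≠ 0) : A.1 *ᵥ v ≠ 0 := by
  intro h
  apply hv
  have := congrArg (fun w => (A⁻¹).1 *ᵥ w) h
  simpa [Matrix.mulVec_mulVec] using this

theorem ActsAs.mul {g h : M24} {A B : GL (Fin 3) (ZMod 2)} (hg : ActsAs g A) (hh : ActsAs h B) :
    ActsAs (g * h) (A * B) := fun v hv => by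
  rw [mul_smul, hh v hv, hg _ (gl_mulVec_ne hv), Matrix.mulVec_mulVec]
  rfl

theorem ActsAs.one : ActsAs 1 1 := fun v _ => by simp

theorem ActsAs.unique {g : M24} {A B : GL (Fin 3) (ZMod 2)} (hA : ActsAs g A) (hB : ActsAs g B) :
    A = B := by
  refine Units.ext (Matrix.ext_of_mulVec_single fun i => ?_)
  have hv : (Pi.single i 1 : Vec3) ≠ 0 := by
    intro h
    simpa using congrFun h i
  exact refSextet_injective (gl_mulVec_ne hv) (gl_mulVec_ne hv) ((hA _ hv).symm.trans (hB _ hv))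

/-- The elements acting linearly. -/
def linearGroup : Subgroup M24 where
  carrier := {g | ∃ A, ActsAs g A}
  one_mem' := ⟨1, ActsAs.one⟩
  mul_mem' := by
    rintro g h ⟨A, hA⟩ ⟨B, hB⟩
    exact ⟨A * B, hA.mul hB⟩
  inv_mem' := by
    rintro g ⟨A, hA⟩
    refine ⟨A⁻¹, fun v hv => ?_⟩
    rw [inv_smul_eq_iff, hA _ (gl_mulVec_ne hv), Matrix.mulVec_mulVec, ← Units.val_mul]
    simp

theorem actsAs_of_linOK {t : ℕ × ℕ} (h : linOK t = true) :
    ∃ A : GL (Fin 3) (ZMod 2), A.1 = colMat (refImg t 1) (refImg t 2) (refImg t 4) ∧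
      ActsAs (m24Of t) A := by
  simp only [linOK, Bool.and_eq_true, List.all_eq_true] at h
  set M := colMat (refImg t 1) (refImg t 2) (refImg t 4) with hM
  have hcol : ∀ v, vidx (M *ᵥ v) = combIdx (refImg t 1) (refImg t 2) (refImg t 4) (vidx v) :=
    fun v => vidx_colMat ⟨_, refImg_lt t 1⟩ ⟨_, refImg_lt t 2⟩ ⟨_, refImg_lt t 4⟩ v
  have hne : ∀ v : Vec3, v ≠ 0 → M *ᵥ v ≠ 0 := by
    intro v hv h0
    have hs := h.2 _ (vidx_facts.2.1 v hv)
    rw [← hcol, h0, vidx_facts.2.2.2.2.2.2] at hs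
    simp only [refStep, sextetKind, Bool.and_eq_true, beq_iff_eq] at hs
    exact ((refRep_facts.1 0 (by norm_num)).1 hs.1.2) rfl
  have hu : IsUnit M := by
    rw [← Matrix.mulVec_injective_iff_isUnit]
    intro v w hvw
    by_contra hc
    exact hne (v - w) (sub_ne_zero.2 hc) (by rw [Matrix.mulVec_sub]; exact sub_eq_zero.2 hvw)
  obtain ⟨A, hA⟩ := hu
  refine ⟨A, hA, fun v hv => ?_⟩
  rw [refSextet, refSextet, hA, hcol]
  exact sextetKind.ok_spec t h.1 _ _ (h.2 _ (vidx_facts.2.1 v hv))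

/-- All tables used for generation. -/
def trioTables : List (ℕ × ℕ) := trioSwaps ++ trioLevels.flatMap fun l => l.2.2

theorem trioTables_lin : trioTables.all linOK = true := by decide +kernel

theorem stab_le_linearGroup : MulAction.stabilizer M24 baseTrio ≤ linearGroup := by
  have hn : ∀ t ∈ trioTables, m24Of t ∈ linearGroup := fun t ht => by
    obtain ⟨A, -, hA⟩ := actsAs_of_linOK (List.all_eq_true.1 trioTables_lin t ht)
    exact ⟨A, hA⟩
  exact stabilizer_le baseTrio_eq.1 baseTrio_eq.2 (by decide) trioStab_checks.1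
    trioStab_checks.2.1 (fun t ht => hn t (List.mem_append_left _ ht))
    fun l hl t ht => hn t (List.mem_append_right _ (List.mem_flatMap.2 ⟨l, hl, ht⟩))

theorem exists_actsAs (g : MulAction.stabilizer M24 baseTrio) : ∃ A, ActsAs g.1 A :=
  stab_le_linearGroup g.2

/-- The linear representation. -/
noncomputable def trioLinHom : MulAction.stabilizer M24 baseTrio →* GL (Fin 3) (ZMod 2) where
  toFun g := (exists_actsAs g).choose
  map_one' := (exists_actsAs 1).choose_spec.unique ActsAs.one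
  map_mul' g h := (exists_actsAs (g * h)).choose_spec.unique
    ((exists_actsAs g).choose_spec.mul (exists_actsAs h).choose_spec)

theorem trioLinHom_eq {g : MulAction.stabilizer M24 baseTrio} {A : GL (Fin 3) (ZMod 2)}
    (h : ActsAs g.1 A) : trioLinHom g = A := (exists_actsAs g).choose_spec.unique h

/-- The table fixes the three octads. -/
def fixesTrio (t : ℕ × ℕ) : Bool := isM24Tbl t && trioMasks.all fun m => imgMask t.1 m == m

theorem fixesTrio_spec {t : ℕ × ℕ} (h : fixesTrio t = true) :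
    ∃ g : MulAction.stabilizer M24 baseTrio, g.1 = m24Of t ∧ setPerm baseTrio g = 1 := by
  simp only [fixesTrio, Bool.and_eq_true, List.all_eq_true, beq_iff_eq] at h
  have hfix : ∀ x ∈ baseTrio, m24Of t • x = x := by
    intro x hx
    rw [baseTrio_eq.1, List.mem_toFinset, List.mem_map] at hx
    obtain ⟨m, hm, rfl⟩ := hx
    rw [m24Of_smul_unmask h.1, h.2 m hm]
  have hmem : m24Of t ∈ MulAction.stabilizer M24 baseTrio := by
    rw [MulAction.mem_stabilizer_iff]
    refine Finset.eq_of_subset_of_card_le ?_ (Finset.card_smul_finset _ baseTrio).ge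
    intro x hx
    obtain ⟨y, hy, rfl⟩ := Finset.mem_smul_finset.1 hx
    rw [hfix y hy]; exact hy
  exact ⟨⟨_, hmem⟩, rfl, setPerm_ker_iff.2 hfix⟩

theorem trioLinear_check : (trioLinear.all fun e =>
    fixesTrio e.2 && linOK e.2 && refImg e.2 1 == e.1.1 && refImg e.2 2 == e.1.2.1 &&
      refImg e.2 4 == e.1.2.2) = true := by
  decide +kernel

theorem trioLinear_complete : ∀ a < 8, ∀ b < 8, ∀ c < 8,
    ([1, 2, 3, 4, 5, 6, 7].all fun j => combIdx a b c j != 0) = true →
      (trioLinear.any fun e => e.1 == (a, b, c)) = true := by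
  decide +kernel

theorem exists_lift_linear (A : GL (Fin 3) (ZMod 2)) :
    ∃ g : MulAction.stabilizer M24 baseTrio, setPerm baseTrio g = 1 ∧ trioLinHom g = A := by
  set a := vidx (A.1 *ᵥ ![1, 0, 0])
  set b := vidx (A.1 *ᵥ ![0, 1, 0])
  set c := vidx (A.1 *ᵥ ![0, 0, 1])
  have hA : A.1 = colMat a b c := by
    refine Matrix.ext_of_mulVec_single fun i => vidx_facts.2.2.1 _ _ ?_
    rw [vidx_colMat ⟨a, vidx_facts.1 _⟩ ⟨b, vidx_facts.1 _⟩ ⟨c, vidx_facts.1 _⟩]
    have e0 : (Pi.single (0 : Fin 3) (1 : ZMod 2) : Vec3) = ![1, 0, 0] := by decide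
    have e1 : (Pi.single (1 : Fin 3) (1 : ZMod 2) : Vec3) = ![0, 1, 0] := by decide
    have e2 : (Pi.single (2 : Fin 3) (1 : ZMod 2) : Vec3) = ![0, 0, 1] := by decide
    fin_cases i <;>
      simp only [Fin.zero_eta, Fin.mk_one, Fin.reduceFinMk, e0, e1, e2, vidx_facts.2.2.2.1,
        vidx_facts.2.2.2.2.1, vidx_facts.2.2.2.2.2.1] <;>
      simp [combIdx, a, b, c, show (4 : ℕ).testBit 0 = false from rfl,
        show (4 : ℕ).testBit 1 = false from rfl, show (4 : ℕ).testBit 2 = true from rfl,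
        show (2 : ℕ).testBit 0 = false from rfl, show (2 : ℕ).testBit 1 = true from rfl,
        show (2 : ℕ).testBit 2 = false from rfl, show (1 : ℕ).testBit 1 = false from rfl,
        show (1 : ℕ).testBit 2 = false from rfl, show (1 : ℕ).testBit 0 = true from rfl]
  have hind : ([1, 2, 3, 4, 5, 6, 7].all fun j => combIdx a b c j != 0) = true := by
    have hsurj : ∀ j ∈ [1, 2, 3, 4, 5, 6, 7], ∃ v : Vec3, v ≠ 0 ∧ vidx v = j := by decide +kernel
    rw [List.all_eq_true]
    intro j hj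
    obtain ⟨v, hv, rfl⟩ := hsurj j hj
    rw [bne_iff_ne, ← vidx_colMat ⟨a, vidx_facts.1 _⟩ ⟨b, vidx_facts.1 _⟩ ⟨c, vidx_facts.1 _⟩,
      ← hA]
    intro h
    exact gl_mulVec_ne (A := A) hv (vidx_facts.2.2.1 _ 0 (h.trans vidx_facts.2.2.2.2.2.2.symm))
  obtain ⟨e, he, hkey⟩ := List.any_eq_true.1
    (trioLinear_complete a (vidx_facts.1 _) b (vidx_facts.1 _) c (vidx_facts.1 _) hind)
  have hk := List.all_eq_true.1 trioLinear_check e he
  simp only [Bool.and_eq_true, beq_iff_eq] at hk hkey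
  obtain ⟨⟨⟨⟨hf, hl⟩, ha⟩, hb⟩, hc⟩ := hk
  obtain ⟨g, hg, hperm⟩ := fixesTrio_spec hf
  obtain ⟨B, hB, hact⟩ := actsAs_of_linOK hl
  refine ⟨g, hperm, trioLinHom_eq ?_⟩
  rw [hg]
  have : B = A := Units.ext (by rw [hB, hA, ha, hb, hc, hkey])
  exact this ▸ hact

theorem trioSix_check : (trioSix.all fun t => fixesTrio t && linOK t && refImg t 1 == 1 &&
    refImg t 2 == 2 && refImg t 4 == 4) = true := by
  decide +kernel

theorem colMat_one : colMat 1 2 4 = 1 := by decide +kernel

theorem trio_structure_base :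
    ∃ (Ψ : MulAction.stabilizer M24 baseTrio →* GL (Fin 3) (ZMod 2) × Equiv.Perm (Fin 3)),
      Function.Surjective Ψ ∧ Nat.card Ψ.ker = 64 ∧ ∀ x ∈ Ψ.ker, x * x = 1 := by
  classical
  have hT : baseTrio ∈ trios := orbit_baseTrio ▸ MulAction.mem_orbit_self baseTrio
  let σ : MulAction.stabilizer M24 baseTrio →* Equiv.Perm (Fin 3) :=
    (Finset.equivFinOfCardEq hT.1).permCongrHom.toMonoidHom.comp (setPerm baseTrio)
  set Ψ := trioLinHom.prod σ with hΨ
  have hsurj : Function.Surjective Ψ := by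
    rintro ⟨A, e⟩
    obtain ⟨h, hh⟩ := trio_setPerm_surjective hT ((Finset.equivFinOfCardEq hT.1).permCongrHom.symm e)
    obtain ⟨g, hg, hgA⟩ := exists_lift_linear (A * (trioLinHom h)⁻¹)
    refine ⟨g * h, Prod.ext ?_ ?_⟩
    · change trioLinHom (g * h) = A
      rw [map_mul, hgA, inv_mul_cancel_right]
    · change (Finset.equivFinOfCardEq hT.1).permCongrHom (setPerm baseTrio (g * h)) = e
      rw [map_mul (setPerm baseTrio), hg, hh, one_mul, MulEquiv.apply_symm_apply]
  have hst := card_stabilizer_of_orbit orbit_baseTrio hT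
  rw [ncard_trios] at hst
  have hGL : Nat.card (GL (Fin 3) (ZMod 2)) = 168 := by
    rw [Matrix.card_GL_field]
    simp [Fin.prod_univ_three]
  have h1 := Subgroup.card_mul_index Ψ.ker
  rw [Subgroup.index_ker, MonoidHom.range_eq_top.2 hsurj, Subgroup.card_top, Nat.card_prod, hGL,
    Nat.card_perm, Nat.card_fin, show Nat.factorial 3 = 6 by decide] at h1
  have hker : Nat.card Ψ.ker = 64 := by omega
  obtain ⟨-, hcard, hsq⟩ := spanGroup_spec trioStab_checks.2.2
  have hle : spanGroup trioSix ≤ Ψ.ker.map (MulAction.stabilizer M24 baseTrio).subtype := by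
    rw [spanGroup, Subgroup.closure_le]
    rintro _ ⟨t, ht, rfl⟩
    have hk := List.all_eq_true.1 trioSix_check t ht
    simp only [Bool.and_eq_true, beq_iff_eq] at hk
    obtain ⟨⟨⟨⟨hf, hl⟩, ha⟩, hb⟩, hc⟩ := hk
    obtain ⟨g, hg, hperm⟩ := fixesTrio_spec hf
    obtain ⟨B, hB, hact⟩ := actsAs_of_linOK hl
    refine ⟨g, ?_, hg⟩
    rw [SetLike.mem_coe, MonoidHom.mem_ker, hΨ, MonoidHom.prod_apply]
    refine Prod.ext ?_ ?_
    · refine trioLinHom_eq ?_
      rw [hg]
      have : B = 1 := Units.ext (by rw [hB, ha, hb, hc, colMat_one, Units.val_one])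
      rwa [this] at hact
    · change (Finset.equivFinOfCardEq hT.1).permCongrHom (setPerm baseTrio g) = 1
      rw [hperm, map_one]
  have heq := Subgroup.eq_of_le_of_card_ge hle (by
    rw [Subgroup.card_map_of_injective (Subgroup.subtype_injective _), hker, hcard]
    decide +kernel)
  refine ⟨Ψ, hsurj, hker, fun x hx => Subtype.ext ?_⟩
  refine hsq x.1 ?_
  rw [heq]
  exact ⟨x, hx, rfl⟩

/-- Transport of a surjection with small kernel to a conjugate stabiliser. -/
theorem structure_transfer {G X Q : Type*} [Group G] [MulAction G X] [Group Q] (x : X) (g : G)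
    (Ψ : MulAction.stabilizer G x →* Q) (hs : Function.Surjective Ψ)
    (hc : Nat.card Ψ.ker = 64) (hsq : ∀ y ∈ Ψ.ker, y * y = 1) :
    ∃ (N : Subgroup (MulAction.stabilizer G (g • x))) (_ : N.Normal),
      Nat.card N = 64 ∧ (∀ y ∈ N, y * y = 1) ∧
      Nonempty (MulAction.stabilizer G (g • x) ⧸ N ≃* Q) := by
  let e := MulAction.stabilizerEquivStabilizer (a := x) (b := g • x) (g := g) rfl
  let Φ := Ψ.comp e.symm.toMonoidHom
  have hΦ : Function.Surjective Φ := hs.comp e.symm.surjective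
  have hker : Φ.ker = Ψ.ker.map e.toMonoidHom := by
    ext y
    rw [Subgroup.mem_map_equiv]
    rfl
  refine ⟨Φ.ker, inferInstance, ?_, ?_, ⟨QuotientGroup.quotientKerEquivOfSurjective Φ hΦ⟩⟩
  · rw [hker, Subgroup.card_map_of_injective e.injective, hc]
  · intro y hy
    apply e.symm.injective
    rw [map_mul, map_one]
    exact hsq _ hy

theorem trio_structure {T : Finset (Finset GolayPt)} (hT : T ∈ trios) :
    ∃ (N : Subgroup (MulAction.stabilizer M24 T)) (_ : N.Normal),
      Nat.card N = 64 ∧ (∀ x ∈ N, x * x = 1) ∧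
      Nonempty (MulAction.stabilizer M24 T ⧸ N ≃* GL (Fin 3) (ZMod 2) × Equiv.Perm (Fin 3)) := by
  obtain ⟨a, rfl⟩ := exists_smul_baseTrio hT
  obtain ⟨Ψ, hsurj, hker, hsq⟩ := trio_structure_base
  exact structure_transfer baseTrio a Ψ hsurj hker hsq

end CfsgLib.GolayStructure
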